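import Cfsg.Agent.Spor.ThetaPoisson

/-! The theta series of an even unimodular lattice of rank 24 is a modular form of weight 12. -/

set_option autoImplicit false
open Matrix Complex Real Filter Asymptotics ModularForm MatrixGroups EisensteinSeries
open UpperHalfPlane hiding I I_re I_im

namespace Cfsg.Agent.Spor.Theta

/-- The real matrix of an integer matrix. -/
def rm {n : ℕ} (B : Matrix (Fin n) (Fin n) ℤ) : Matrix (Fin n) (Fin n) ℝ :=
  (Int.castRingHom ℝ).mapMatrix B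

theorem qf_rm {n : ℕ} (B : Matrix (Fin n) (Fin n) ℤ) (x : Fin n → ℤ) :
    qf (rm B) (ic x) = ((x ⬝ᵥ B *ᵥ x : ℤ) : ℝ) := by
  simp [qf, rm, ic, dotProduct, mulVec]

theorem rm_symm {n : ℕ} {B : Matrix (Fin n) (Fin n) ℤ} (h : B.IsSymm) : (rm B).IsSymm := by
  ext i j; simp [rm, h.apply]

theorem rm_pos {n : ℕ} {B : Matrix (Fin n) (Fin n) ℤ} (h : B.IsSymm)
    (hpos : ∀ x : Fin n → ℤ, x ≠ 0 → 0 < x ⬝ᵥ (B *ᵥ x)) (hdet : B.det = 1) :
    ∀ x, x ≠ 0 → 0 < qf (rm B) x := by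
  have h0 : ∀ x : Fin n → ℤ, 0 ≤ qf (rm B) (ic x) := fun x => by
    rw [qf_rm]
    by_cases hx : x = 0
    · simp [hx]
    · exact_mod_cast (hpos x hx).le
  have h1 : ∀ x : Fin n → ℚ, 0 ≤ qf (rm B) (fun i => (x i : ℝ)) := fun x => by
    obtain ⟨d, hd⟩ := IsLocalization.exist_integer_multiples_of_finite (nonZeroDivisors ℤ) x
    choose y hy using hd
    have hd0 : ((d : ℤ) : ℝ) ≠ 0 := by exact_mod_cast nonZeroDivisors.ne_zero d.2
    have : (fun i => (x i : ℝ)) = ((d : ℤ) : ℝ)⁻¹ • ic y := by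
      funext i
      have := congrArg (fun q : ℚ => (q : ℝ)) (hy i)
      simp only [eq_intCast, Rat.cast_intCast, zsmul_eq_mul, Rat.cast_mul] at this
      simp only [Pi.smul_apply, ic, this, smul_eq_mul]
      field_simp
    rw [this, qf_smul]
    exact mul_nonneg (sq_nonneg _) (h0 y)
  have h2 : ∀ x, 0 ≤ qf (rm B) x := fun x => by
    have hd : DenseRange (Pi.map (fun (_ : Fin n) (q : ℚ) => (q : ℝ))) :=
      DenseRange.piMap fun _ => Rat.denseRange_cast
    exact hd.induction_on x (isClosed_le continuous_const (continuous_qf _)) h1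
  have h3 : (rm B).PosSemidef := by
    refine Matrix.PosSemidef.of_dotProduct_mulVec_nonneg ?_ fun x => by simpa [qf] using h2 x
    simpa [Matrix.IsHermitian, conjTranspose_eq_transpose_of_trivial] using (rm_symm h).eq
  have h4 : (rm B).det ≠ 0 := by
    rw [rm, ← RingHom.map_det, hdet]; simp
  have h5 := h3.posDef_iff_det_ne_zero.mpr h4
  intro x hx
  simpa [qf] using h5.dotProduct_mulVec_pos hx

theorem hasSum_congr_fun {f g : ℕ → ℂ} {a : ℂ} (h : HasSum f a) (e : ∀ m, g m = f m) :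
    HasSum g a := (funext e : g = f) ▸ h

/-- The theta series. -/
noncomputable def theta {n : ℕ} (B : Matrix (Fin n) (Fin n) ℤ) (z : ℂ) : ℂ :=
  ∑' x : Fin n → ℤ, cexp (π * I * z * ((x ⬝ᵥ B *ᵥ x : ℤ) : ℂ))

theorem term_eq {n : ℕ} (B : Matrix (Fin n) (Fin n) ℤ) (z : ℂ) (x : Fin n → ℤ) :
    cexp (-π * (-I * z) * (qf (rm B) (ic x) : ℝ) + 2 * π * I * ((0 : Fin n → ℝ) ⬝ᵥ ic x : ℝ)) =
    cexp (π * I * z * ((x ⬝ᵥ B *ᵥ x : ℤ) : ℂ)) := by
  rw [qf_rm]; congr 1; simp [mul_assoc]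

theorem summable_theta {n : ℕ} {B : Matrix (Fin n) (Fin n) ℤ}
    (hB : ∀ x, x ≠ 0 → 0 < qf (rm B) x) {z : ℂ} (hz : 0 < z.im) :
    Summable fun x : Fin n → ℤ => ‖cexp (π * I * z * ((x ⬝ᵥ B *ᵥ x : ℤ) : ℂ))‖ := by
  have := summable_lhs _ hB (t := -I * z) (by simpa using hz) 0
  simpa only [term_eq] using this

theorem theta_S {B : Matrix (Fin 24) (Fin 24) ℤ} (h : B.IsSymm)
    (hB : ∀ x, x ≠ 0 → 0 < qf (rm B) x) (hdet : B.det = 1) {z : ℂ} (hz : 0 < z.im) :
    theta B (-z⁻¹) = z ^ 12 * theta B z := by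
  have hu : IsUnit B.det := by rw [hdet]; exact isUnit_one
  have h1 : B * B⁻¹ = 1 := mul_nonsing_inv B hu
  have h2 : B⁻¹ * B = 1 := nonsing_inv_mul B hu
  have hs : B⁻¹.IsSymm := by rw [Matrix.IsSymm, transpose_nonsing_inv, h.eq]
  obtain ⟨κ, hκ⟩ := poisson 24 (rm B) (rm B⁻¹) (rm_symm h) (rm_symm hs) hB
    (by rw [rm, rm, ← map_mul, h1, map_one])
  let e : (Fin 24 → ℤ) ≃ (Fin 24 → ℤ) :=
    ⟨fun x => B *ᵥ x, fun y => B⁻¹ *ᵥ y, fun x => by simp [mulVec_mulVec, h2],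
      fun x => by simp [mulVec_mulVec, h1]⟩
  have key : ∀ z : ℂ, 0 < z.im → theta B z = κ * (1 / z ^ 12) * theta B (-z⁻¹) := fun z hz => by
    have hz0 : z ≠ 0 := by rintro rfl; simp at hz
    have := hκ (-I * z) (by simpa using hz) 0
    simp only [term_eq, sub_zero] at this
    rw [theta, this, theta, ← e.tsum_eq]
    congr 1
    · congr 1
      rw [_root_.one_div_pow, show 24 = 2 * 12 from rfl, pow_mul, one_div (2 : ℂ), cpow_ofNat_inv_pow,
        mul_pow, show (-I) ^ 12 = 1 by rw [Even.neg_pow (by decide), show 12 = 4 * 3 from rfl, pow_mul]; simp,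
        one_mul]
    · refine tsum_congr fun x => ?_
      rw [qf_rm]
      have : e x ⬝ᵥ B⁻¹ *ᵥ e x = x ⬝ᵥ B *ᵥ x := by
        change B *ᵥ x ⬝ᵥ B⁻¹ *ᵥ B *ᵥ x = _
        rw [mulVec_mulVec, h2, one_mulVec, dotProduct_comm]
      rw [this]
      congr 1
      push_cast
      field_simp
      simp
  have hI : theta B I ≠ 0 := by
    have hs := (summable_theta hB (z := I) (by simp))
    have e1 : ∀ x : Fin 24 → ℤ, cexp (π * I * I * ((x ⬝ᵥ B *ᵥ x : ℤ) : ℂ)) =
        (‖cexp (π * I * I * ((x ⬝ᵥ B *ᵥ x : ℤ) : ℂ))‖ : ℝ) := fun x => by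
      have : (π * I * I * ((x ⬝ᵥ B *ᵥ x : ℤ) : ℂ)) = ((-π * ((x ⬝ᵥ B *ᵥ x : ℤ) : ℝ) : ℝ) : ℂ) := by
        rw [mul_assoc (π : ℂ), I_mul_I]; push_cast; ring
      rw [this, ← ofReal_exp, Complex.norm_real, Real.norm_of_nonneg (Real.exp_pos _).le]
    rw [theta, tsum_congr e1, ← ofReal_tsum]
    exact_mod_cast (hs.tsum_pos (fun _ => norm_nonneg _) 0
      (norm_pos_iff.mpr (Complex.exp_ne_zero _))).ne'
  have hκ1 : κ = 1 := by
    have := key I (by simp)
    rw [inv_I, neg_neg, show I ^ 12 = 1 by rw [show 12 = 4 * 3 from rfl, pow_mul]; simp] at this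
    apply mul_right_cancel₀ hI
    rw [one_mul]
    simpa using this.symm
  have hz0 : z ≠ 0 := by rintro rfl; simp at hz
  rw [key z hz, hκ1]
  field_simp

theorem differentiableOn_theta {n : ℕ} {B : Matrix (Fin n) (Fin n) ℤ}
    (hB : ∀ x, x ≠ 0 → 0 < qf (rm B) x) : DifferentiableOn ℂ (theta B) {z | 0 < z.im} := by
  intro z hz
  have hz' : 0 < z.im := hz
  have hs := summable_theta hB (z := (z.im / 2 : ℝ) * I) (by simpa using hz')
  have ho : IsOpen {w : ℂ | z.im / 2 < w.im} := isOpen_lt continuous_const continuous_im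
  have := differentiableOn_tsum_of_summable_norm (U := {w : ℂ | z.im / 2 < w.im})
    (F := fun (x : Fin n → ℤ) (w : ℂ) => cexp (π * I * w * ((x ⬝ᵥ B *ᵥ x : ℤ) : ℂ))) hs
    (fun x => by fun_prop) ho (fun x w hw => by
      rw [Complex.norm_exp, Complex.norm_exp]
      apply Real.exp_le_exp.mpr
      have h0 : (0 : ℝ) ≤ ((x ⬝ᵥ B *ᵥ x : ℤ) : ℝ) := by
        rw [← qf_rm]
        by_cases hx : ic x = 0
        · simp [hx, qf]
        · exact (hB _ hx).le
      have hw' : z.im / 2 < w.im := hw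
      simp only [mul_re, mul_im, ofReal_re, ofReal_im, I_re, I_im, intCast_re, intCast_im]
      nlinarith [mul_nonneg (mul_nonneg pi_pos.le h0) (sub_pos.mpr hw').le])
  exact (this.differentiableAt (ho.mem_nhds (by simpa using hz'))).differentiableWithinAt

theorem hasSum_theta {n : ℕ} {B : Matrix (Fin n) (Fin n) ℤ}
    (hB : ∀ x, x ≠ 0 → 0 < qf (rm B) x) (heven : ∀ x : Fin n → ℤ, (2 : ℤ) ∣ x ⬝ᵥ (B *ᵥ x))
    (τ : ℍ) : HasSum (fun m : ℕ => (({x : Fin n → ℤ | x ⬝ᵥ (B *ᵥ x) = 2 * m}.ncard : ℕ) : ℂ) •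
      Function.Periodic.qParam 1 τ ^ m) (theta B τ) := by
  have h0 : ∀ x : Fin n → ℤ, 0 ≤ x ⬝ᵥ B *ᵥ x := fun x => by
    have : (0 : ℝ) ≤ ((x ⬝ᵥ B *ᵥ x : ℤ) : ℝ) := by
      rw [← qf_rm]
      by_cases hx : ic x = 0
      · simp [hx, qf]
      · exact (hB _ hx).le
    exact_mod_cast this
  let N : (Fin n → ℤ) → ℕ := fun x => ((x ⬝ᵥ B *ᵥ x) / 2).toNat
  have hN : ∀ x m, N x = m ↔ x ⬝ᵥ B *ᵥ x = 2 * (m : ℤ) := fun x m => by
    have := h0 x
    have := heven x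
    simp only [N]; omega
  have := (summable_theta hB τ.im_pos).of_norm.hasSum.tsum_fiberwise N
  refine hasSum_congr_fun this fun m => ?_
  have e1 : ∀ x : N ⁻¹' {m}, cexp (π * I * τ * ((x.1 ⬝ᵥ B *ᵥ x.1 : ℤ) : ℂ)) =
      Function.Periodic.qParam 1 τ ^ m := fun x => by
    rw [(hN x.1 m).mp x.2, Function.Periodic.qParam, ← Complex.exp_nat_mul]
    congr 1; push_cast; ring
  rw [tsum_congr e1, tsum_const, Nat.card_coe_set_eq, smul_eq_mul, nsmul_eq_mul]
  congr 3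
  ext x
  simp [hN]

/-- The theta series as a modular form. -/
noncomputable def thetaForm {B : Matrix (Fin 24) (Fin 24) ℤ} (h : B.IsSymm)
    (hB : ∀ x, x ≠ 0 → 0 < qf (rm B) x) (heven : ∀ x : Fin 24 → ℤ, (2 : ℤ) ∣ x ⬝ᵥ (B *ᵥ x))
    (hdet : B.det = 1) : ModularForm 𝒮ℒ 12 :=
  have hall : ∀ γ : SL(2, ℤ), (fun τ : ℍ => theta B τ) ∣[(12 : ℤ)] γ = fun τ : ℍ => theta B τ := by
    apply SlashInvariantForm.slash_action_generators_SL2Z
    · ext z
      rw [SL_slash_apply, UpperHalfPlane.modular_S_smul, ModularGroup.denom_S]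
      have := theta_S h hB hdet z.im_pos
      simp only [inv_neg, this, _root_.zpow_neg, zpow_ofNat]
      field_simp [z.ne_zero]
    · ext z
      rw [SL_slash_apply, modular_T_smul, ModularGroup.denom_apply]
      simp only [ModularGroup.T, coe_vadd, theta]
      simp
      refine tsum_congr fun x => ?_
      obtain ⟨k, hk⟩ := heven x
      rw [hk, ← Complex.exp_periodic.int_mul k (π * I * z * ((2 * k : ℤ) : ℂ))]
      congr 1; push_cast; ring
  { toFun := fun τ => theta B τ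
    slash_action_eq' := by
      rintro _ ⟨γ, rfl⟩
      exact hall γ
    holo' := by
      rw [UpperHalfPlane.mdifferentiable_iff]
      exact (differentiableOn_theta hB).congr fun z hz => by
        simp [ofComplex_apply_of_im_pos hz]
    bdd_at_cusps' := fun {c} hc => by
      rw [OnePoint.isBoundedAt_iff_forall_SL2Z hc]
      intro γ _
      rw [hall γ]
      exact isBoundedAtImInfty_of_hasSum_qExpansion one_pos (hasSum_theta hB heven) }

/-- The form `(7 E₄³ + 5 E₆²) / 12`. -/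
noncomputable def leechForm : ModularForm 𝒮ℒ 12 :=
  (7 / 12 : ℂ) • ModularForm.mcast (by decide) (E₄.pow 3) +
    (5 / 12 : ℂ) • ModularForm.mcast (by decide) (E₆.pow 2)

theorem leechForm_qExpansion : qExpansion 1 leechForm =
    (7 / 12 : ℂ) • (qExpansion 1 E₄ * qExpansion 1 E₄ * qExpansion 1 E₄) +
      (5 / 12 : ℂ) • (qExpansion 1 E₆ * qExpansion 1 E₆) := by
  rw [leechForm, FunLike.coe_add, ModularForm.qExpansion_add one_pos one_mem_strictPeriods_SL,
    FunLike.coe_smul, FunLike.coe_smul, ModularForm.qExpansion_smul one_pos one_mem_strictPeriods_SL,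
    ModularForm.qExpansion_smul one_pos one_mem_strictPeriods_SL]
  simp only [coe_mcast, ModularForm.qExpansion_pow one_pos one_mem_strictPeriods_SL]
  ring_nf

theorem E4_coeff : (qExpansion 1 E₄).coeff 0 = 1 ∧ (qExpansion 1 E₄).coeff 1 = 240 ∧
    (qExpansion 1 E₄).coeff 2 = 2160 ∧ (qExpansion 1 E₄).coeff 3 = 6720 ∧
    (qExpansion 1 E₄).coeff 4 = 17520 := by
  have hb : bernoulli 4 = -1 / 30 := by decide +kernel
  have h2 : ArithmeticFunction.sigma 3 2 = 9 := by decide +kernel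
  have h3 : ArithmeticFunction.sigma 3 3 = 28 := by decide +kernel
  have h4 : ArithmeticFunction.sigma 3 4 = 73 := by decide +kernel
  refine ⟨?_, ?_, ?_, ?_, ?_⟩ <;> norm_num [E_qExpansion_coeff _ ⟨2, rfl⟩, hb, h2, h3, h4]

theorem E6_coeff : (qExpansion 1 E₆).coeff 0 = 1 ∧ (qExpansion 1 E₆).coeff 1 = -504 ∧
    (qExpansion 1 E₆).coeff 2 = -16632 ∧ (qExpansion 1 E₆).coeff 3 = -122976 ∧
    (qExpansion 1 E₆).coeff 4 = -532728 := by
  have hb : bernoulli 6 = 1 / 42 := by decide +kernel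
  have h2 : ArithmeticFunction.sigma 5 2 = 33 := by decide +kernel
  have h3 : ArithmeticFunction.sigma 5 3 = 244 := by decide +kernel
  have h4 : ArithmeticFunction.sigma 5 4 = 1057 := by decide +kernel
  refine ⟨?_, ?_, ?_, ?_, ?_⟩ <;> norm_num [E_qExpansion_coeff _ ⟨3, rfl⟩, hb, h2, h3, h4]

theorem leechForm_coeff : (qExpansion 1 leechForm).coeff 0 = 1 ∧
    (qExpansion 1 leechForm).coeff 1 = 0 ∧ (qExpansion 1 leechForm).coeff 2 = 196560 ∧
    (qExpansion 1 leechForm).coeff 3 = 16773120 ∧ (qExpansion 1 leechForm).coeff 4 = 398034000 := by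
  obtain ⟨a0, a1, a2, a3, a4⟩ := E4_coeff
  obtain ⟨b0, b1, b2, b3, b4⟩ := E6_coeff
  rw [leechForm_qExpansion]
  refine ⟨?_, ?_, ?_, ?_, ?_⟩ <;>
  norm_num [PowerSeries.coeff_mul, Finset.Nat.antidiagonal_succ, a0, a1, a2, a3, a4,
    b0, b1, b2, b3, b4, -PowerSeries.coeff_zero_eq_constantCoeff]

theorem counts (B : Matrix (Fin 24) (Fin 24) ℤ) (hsymm : B.IsSymm)
    (hpos : ∀ x : Fin 24 → ℤ, x ≠ 0 → 0 < x ⬝ᵥ (B *ᵥ x))
    (heven : ∀ x : Fin 24 → ℤ, (2 : ℤ) ∣ x ⬝ᵥ (B *ᵥ x)) (hdet : B.det = 1)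
    (h2 : ∀ x : Fin 24 → ℤ, x ⬝ᵥ (B *ᵥ x) ≠ 2) (m : ℕ) :
    (({x : Fin 24 → ℤ | x ⬝ᵥ (B *ᵥ x) = 2 * m}.ncard : ℕ) : ℂ) =
      (qExpansion 1 leechForm).coeff m := by
  have hB := rm_pos hsymm hpos hdet
  let f := thetaForm hsymm hB heven hdet
  have hf : ∀ m : ℕ, (({x : Fin 24 → ℤ | x ⬝ᵥ (B *ᵥ x) = 2 * m}.ncard : ℕ) : ℂ) =
      (qExpansion 1 f).coeff m :=
    qExpansion_coeff_unique f one_pos
      (ModularFormClass.analyticAt_cuspFunction_zero f one_pos one_mem_strictPeriods_SL)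
      (hasSum_theta hB heven)
  have h0 : f - leechForm = 0 := by
    apply sturm_bound_levelOne
    rw [FunLike.coe_sub, ModularForm.qExpansion_sub one_pos one_mem_strictPeriods_SL]
    refine lt_of_lt_of_le (b := ((2 : ℕ) : ℕ∞)) (by decide) (PowerSeries.nat_le_order _ _ ?_)
    intro i hi
    rw [map_sub, ← hf]
    interval_cases i
    · rw [leechForm_coeff.1]
      have : {x : Fin 24 → ℤ | x ⬝ᵥ (B *ᵥ x) = 2 * ((0 : ℕ) : ℤ)} = {0} := by
        ext x
        simp only [Set.mem_setOf_eq, Set.mem_singleton_iff]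
        refine ⟨fun h => by_contra fun hx => ?_, fun h => by simp [h]⟩
        have := hpos x hx
        omega
      rw [this]; simp
    · rw [leechForm_coeff.2.1]
      have : {x : Fin 24 → ℤ | x ⬝ᵥ (B *ᵥ x) = 2 * ((1 : ℕ) : ℤ)} = ∅ := by
        ext x
        simpa using h2 x
      rw [this]; simp
  rw [hf, sub_eq_zero.mp h0]

end Cfsg.Agent.Spor.Theta
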