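import Mathlib

/-!
# The local configuration `srg(15,8,4,4)` used for the uniqueness of `srg(77,16,0,4)`
-/

set_option autoImplicit false
set_option linter.unusedSectionVars false
set_option linter.unusedSimpArgs false

namespace Cfsg.Agent.S77

open Finset

variable {ι : Type*} [DecidableEq ι]

/-- Gram matrix `2 I + A` of a strongly regular graph with parameters `(15,8,4,4)`. -/
structure T6 (R : Finset ι) (a : ι → ι → ℤ) : Prop where
  card : R.card = 15
  symm : ∀ i ∈ R, ∀ j ∈ R, a i j = a j i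
  diag : ∀ i ∈ R, a i i = 2
  off : ∀ i ∈ R, ∀ j ∈ R, i ≠ j → a i j = 0 ∨ a i j = 1
  row : ∀ i ∈ R, ∑ j ∈ R, a i j = 10
  sq : ∀ i ∈ R, ∀ j ∈ R, ∑ k ∈ R, a i k * a j k = 4 * a i j + 4

variable {R : Finset ι} {a : ι → ι → ℤ}

theorem T6.nonneg (h : T6 R a) {i j : ι} (hi : i ∈ R) (hj : j ∈ R) : 0 ≤ a i j := by
  by_cases e : i = j
  · subst e; rw [h.diag i hi]; norm_num
  · rcases h.off i hi j hj e with e | e <;> rw [e] <;> norm_num

theorem T6.bound (h : T6 R a) {S : Finset ι} (hS : S ⊆ R) {r : ι} (hr : r ∈ S) (w : ι → ℤ)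
    (hw : ∀ k ∈ S, 0 ≤ w k) : ∑ k ∈ S, a r k * w k ≤ w r + ∑ k ∈ S, w k := by
  have e : w r = ∑ k ∈ S, if k = r then w k else 0 := by
    rw [sum_ite_eq' S r w, if_pos hr]
  rw [e, ← sum_add_distrib]
  refine sum_le_sum fun k hk => ?_
  have := hw k hk
  split_ifs with hkr
  · subst hkr; rw [h.diag k (hS hk)]; linarith
  · rcases h.off r (hS hr) k (hS hk) (Ne.symm hkr) with e | e <;> rw [e] <;> linarith

/-- The four cells determined by an edge. -/
def cell (R : Finset ι) (a : ι → ι → ℤ) (s t : ι) (p q : ℤ) : Finset ι :=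
  R.filter fun k => a s k = p ∧ a t k = q

theorem mem_cell {s t k : ι} {p q : ℤ} : k ∈ cell R a s t p q ↔ k ∈ R ∧ a s k = p ∧ a t k = q := by
  simp [cell]

theorem cell_sub {s t : ι} {p q : ℤ} : cell R a s t p q ⊆ R := filter_subset _ _

theorem T6.split (h : T6 R a) {s t : ι} (hs : s ∈ R) (ht : t ∈ R) (hst : a s t = 1)
    (ψ : ι → ℤ → ℤ → ℤ) :
    ∑ k ∈ R, ψ k (a s k) (a t k) = ψ s 2 1 + ψ t 1 2 + ∑ k ∈ cell R a s t 1 1, ψ k 1 1 +
      ∑ k ∈ cell R a s t 1 0, ψ k 1 0 + ∑ k ∈ cell R a s t 0 1, ψ k 0 1 +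
      ∑ k ∈ cell R a s t 0 0, ψ k 0 0 := by
  have hts : a t s = 1 := by rw [h.symm t ht s hs, hst]
  have hne : s ≠ t := by
    rintro rfl
    rw [h.diag s hs] at hst
    norm_num at hst
  have e1 : ψ s 2 1 = ∑ k ∈ R, if k = s then ψ k 2 1 else 0 := by
    rw [sum_ite_eq' R s (fun k => ψ k 2 1), if_pos hs]
  have e2 : ψ t 1 2 = ∑ k ∈ R, if k = t then ψ k 1 2 else 0 := by
    rw [sum_ite_eq' R t (fun k => ψ k 1 2), if_pos ht]
  rw [e1, e2]
  simp only [cell, sum_filter, ← sum_add_distrib]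
  refine sum_congr rfl fun k hk => ?_
  by_cases h1 : k = s
  · subst h1
    simp [h.diag k hk, hts, hne]
  by_cases h2 : k = t
  · subst h2
    simp [h.diag k hk, hst, h1]
  rcases h.off s hs k hk (Ne.symm h1) with e | e <;>
    rcases h.off t ht k hk (Ne.symm h2) with f | f <;> simp [e, f, h1, h2]

set_option maxHeartbeats 1600000 in
theorem T6.main (h : T6 R a) {s t : ι} (hs : s ∈ R) (ht : t ∈ R) (hst : a s t = 1) :
    (cell R a s t 1 1).card = 4 ∧ (∑ k ∈ cell R a s t 1 1, a k s) = 4 ∧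
      (∑ k ∈ cell R a s t 1 1, a k t) = 4 ∧
      ∀ r ∈ R, (∑ k ∈ cell R a s t 1 1, a k r) = 2 ∨ (∑ k ∈ cell R a s t 1 1, a k r) = 4 := by
  have sp := h.split hs ht hst
  set D := cell R a s t 1 1 with hD
  set N1 := cell R a s t 1 0 with hN1
  set N2 := cell R a s t 0 1 with hN2
  set E := cell R a s t 0 0 with hE
  have c0 := sp (fun _ _ _ => 1)
  have c1 := sp (fun _ p _ => p)
  have c2 := sp (fun _ _ q => q)
  have c3 := sp (fun _ p q => p * q)
  simp only [sum_const, h.card, h.row s hs, h.row t ht, h.sq s hs t ht, hst, mul_one, mul_zero,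
    zero_mul, smul_zero, nsmul_eq_mul] at c0 c1 c2 c3
  have cD : D.card = 4 := by omega
  have cN1 : N1.card = 3 := by omega
  have cN2 : N2.card = 3 := by omega
  have cE : E.card = 3 := by omega
  set δ : ι → ℤ := fun r => ∑ k ∈ D, a k r with hδ
  have hDR : D ⊆ R := cell_sub
  have δs : δ s = 4 := by
    simp only [hδ]
    rw [sum_congr rfl (g := fun _ => 1) fun k hk => by
      rw [h.symm k (hDR hk) s hs]; exact (mem_cell.1 hk).2.1]
    simp [cD]
  have δt : δ t = 4 := by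
    simp only [hδ]
    rw [sum_congr rfl (g := fun _ => 1) fun k hk => by
      rw [h.symm k (hDR hk) t ht]; exact (mem_cell.1 hk).2.2]
    simp [cD]
  have δ' : ∀ r ∈ R, ∑ k ∈ D, a r k = δ r := fun r hr =>
    sum_congr rfl fun k hk => h.symm r hr k (hDR hk)
  have s1 : ∑ k ∈ R, δ k = 40 := by
    simp only [hδ]
    rw [sum_comm, sum_congr rfl (g := fun _ => 10) fun k hk => h.row k (hDR hk)]
    simp [cD]
  have sa : ∀ r ∈ R, ∑ k ∈ R, a r k * δ k = 4 * δ r + 16 := by
    intro r hr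
    simp only [hδ, mul_sum]
    rw [sum_comm, sum_congr rfl (g := fun j => 4 * a j r + 4) fun j hj => by
      rw [h.sq r hr j (hDR hj), h.symm r hr j (hDR hj)]]
    rw [sum_add_distrib]
    simp [cD]
  have s3 : ∑ k ∈ R, δ k * δ k = 4 * ∑ k ∈ D, δ k + 64 := by
    have : ∀ k ∈ R, δ k * δ k = ∑ j ∈ D, a j k * δ k := fun k _ => by
      rw [← sum_mul]
    rw [sum_congr rfl this, sum_comm, sum_congr rfl fun j hj => sa j (hDR hj), sum_add_distrib,
      ← mul_sum]
    simp [cD]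
  have b1 : ∀ r ∈ N1, 2 ≤ δ r := by
    intro r hr
    obtain ⟨hrR, h1, h2⟩ := mem_cell.1 hr
    have e := sp (fun k p _ => a r k * p)
    have b := h.bound (S := N1) cell_sub hr (fun _ => 1) (fun _ _ => by norm_num)
    simp only [mul_one, mul_zero, sum_const_zero, h.sq r hrR s hs, δ' r hrR, sum_const, cN1,
      h.symm r hrR s hs, h.symm r hrR t ht, h1, h2, nsmul_eq_mul] at e b
    push_cast at b
    linarith
  have b2 : ∀ r ∈ N2, 2 ≤ δ r := by
    intro r hr
    obtain ⟨hrR, h1, h2⟩ := mem_cell.1 hr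
    have e := sp (fun k _ q => a r k * q)
    have b := h.bound (S := N2) cell_sub hr (fun _ => 1) (fun _ _ => by norm_num)
    simp only [mul_one, mul_zero, sum_const_zero, h.sq r hrR t ht, δ' r hrR, sum_const, cN2,
      h.symm r hrR s hs, h.symm r hrR t ht, h1, h2, nsmul_eq_mul] at e b
    push_cast at b
    linarith
  have b3 : ∀ r ∈ E, δ r ≤ 2 := by
    intro r hr
    obtain ⟨hrR, h1, h2⟩ := mem_cell.1 hr
    have e0 := sp (fun k _ _ => a r k)
    have e1 := sp (fun k p _ => a r k * p)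
    have e2 := sp (fun k _ q => a r k * q)
    have b := h.bound (S := E) cell_sub hr (fun _ => 1) (fun _ _ => by norm_num)
    simp only [mul_one, mul_zero, sum_const_zero, h.sq r hrR t ht, h.sq r hrR s hs, δ' r hrR,
      sum_const, cE, h.row r hrR,
      h.symm r hrR s hs, h.symm r hrR t ht, h1, h2, nsmul_eq_mul] at e0 e1 e2 b
    push_cast at b
    linarith
  have b4 : ∀ r ∈ D, 2 ≤ δ r := by
    intro r hr
    simp only [hδ]
    rw [← h.diag r (hDR hr)]
    exact single_le_sum (f := fun k => a k r) (fun k hk => h.nonneg (hDR hk) (hDR hr)) hr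
  have t0 := sp (fun k _ _ => δ k)
  have t1 := sp (fun k p _ => p * δ k)
  have t2 := sp (fun k _ q => q * δ k)
  have t3 := sp (fun k _ _ => δ k * δ k)
  simp only [s1, sa s hs, sa t ht, s3, δs, δt, one_mul, zero_mul, sum_const_zero] at t0 t1 t2 t3
  have q0 : 0 ≤ ∑ k ∈ D, (δ k * δ k - 7 * δ k + 12) := sum_nonneg fun k _ => by
    rcases le_or_gt (δ k) 3 with e | e <;> nlinarith
  have q1 : 0 ≤ ∑ k ∈ N1, (δ k * δ k - 5 * δ k + 6) := sum_nonneg fun k _ => by
    rcases le_or_gt (δ k) 2 with e | e <;> nlinarith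
  have q2 : 0 ≤ ∑ k ∈ N2, (δ k * δ k - 5 * δ k + 6) := sum_nonneg fun k _ => by
    rcases le_or_gt (δ k) 2 with e | e <;> nlinarith
  have q3 : 0 ≤ ∑ k ∈ E, (δ k * δ k - 3 * δ k + 2) := sum_nonneg fun k _ => by
    rcases le_or_gt (δ k) 1 with e | e <;> nlinarith
  have p1 : 0 ≤ ∑ k ∈ N1, (δ k - 2) := sum_nonneg fun k hk => by linarith [b1 k hk]
  simp only [sum_add_distrib, sum_sub_distrib, ← mul_sum, sum_const, cD, cN1, cN2, cE,
    nsmul_eq_mul] at q0 q1 q2 q3 p1
  push_cast at q0 q1 q2 q3 p1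
  have hsD : ∑ k ∈ D, δ k = 14 := by omega
  have z1 : ∀ r ∈ N1, δ r = 2 := by
    have : ∑ k ∈ N1, (δ k - 2) = 0 := by
      rw [sum_sub_distrib]; simp only [sum_const, cN1, nsmul_eq_mul]; push_cast; omega
    rw [sum_eq_zero_iff_of_nonneg fun k hk => by linarith [b1 k hk]] at this
    intro r hr; linarith [this r hr]
  have z2 : ∀ r ∈ N2, δ r = 2 := by
    have : ∑ k ∈ N2, (δ k - 2) = 0 := by
      rw [sum_sub_distrib]; simp only [sum_const, cN2, nsmul_eq_mul]; push_cast; omega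
    rw [sum_eq_zero_iff_of_nonneg fun k hk => by linarith [b2 k hk]] at this
    intro r hr; linarith [this r hr]
  have z3 : ∀ r ∈ E, δ r = 2 := by
    have : ∑ k ∈ E, (2 - δ k) = 0 := by
      rw [sum_sub_distrib]; simp only [sum_const, cE, nsmul_eq_mul]; push_cast; omega
    rw [sum_eq_zero_iff_of_nonneg fun k hk => by linarith [b3 k hk]] at this
    intro r hr; linarith [this r hr]
  have y1 : ∑ k ∈ N1, δ k * δ k = 12 := by
    rw [sum_congr rfl (g := fun _ => 4) fun k hk => by rw [z1 k hk]; norm_num]; simp [cN1]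
  have y2 : ∑ k ∈ N2, δ k * δ k = 12 := by
    rw [sum_congr rfl (g := fun _ => 4) fun k hk => by rw [z2 k hk]; norm_num]; simp [cN2]
  have y3 : ∑ k ∈ E, δ k * δ k = 12 := by
    rw [sum_congr rfl (g := fun _ => 4) fun k hk => by rw [z3 k hk]; norm_num]; simp [cE]
  have b5 : ∀ r ∈ D, δ r ≤ 4 := by
    intro r hr
    obtain ⟨hrR, h1, h2⟩ := mem_cell.1 hr
    have e := sp (fun k _ _ => a r k * (δ k - 2))
    have b := h.bound (S := D) cell_sub hr (fun k => δ k - 2) (fun k hk => by linarith [b4 k hk])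
    have f : ∑ k ∈ R, a r k * (δ k - 2) = 4 * δ r - 4 := by
      simp only [mul_sub, sum_sub_distrib, ← sum_mul, sa r hrR, h.row r hrR]; ring
    have g1 : ∑ k ∈ N1, a r k * (δ k - 2) = 0 := sum_eq_zero fun k hk => by rw [z1 k hk]; ring
    have g2 : ∑ k ∈ N2, a r k * (δ k - 2) = 0 := sum_eq_zero fun k hk => by rw [z2 k hk]; ring
    have g3 : ∑ k ∈ E, a r k * (δ k - 2) = 0 := sum_eq_zero fun k hk => by rw [z3 k hk]; ring
    have g4 : ∑ k ∈ D, (δ k - 2) = 6 := by
      rw [sum_sub_distrib, hsD]; simp [cD]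
    simp only [f, g1, g2, g3, δs, δt, h.symm r hrR s hs, h.symm r hrR t ht, h1, h2] at e
    rw [g4] at b
    linarith
  have z4 : ∀ r ∈ D, δ r = 2 ∨ δ r = 4 := by
    have : ∑ k ∈ D, (δ k - 2) * (4 - δ k) = 0 := by
      rw [sum_congr rfl (g := fun k => 6 * δ k - δ k * δ k - 8) fun k _ => by ring]
      simp only [sum_sub_distrib, ← mul_sum, sum_const, cD, nsmul_eq_mul]
      push_cast
      omega
    rw [sum_eq_zero_iff_of_nonneg fun k hk =>
      mul_nonneg (by linarith [b4 k hk]) (by linarith [b5 k hk])] at this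
    intro r hr
    rcases mul_eq_zero.1 (this r hr) with e | e
    · left; linarith
    · right; linarith
  refine ⟨cD, δs, δt, fun r hr => ?_⟩
  change δ r = 2 ∨ δ r = 4
  by_cases h1 : r = s
  · rw [h1]; exact Or.inr δs
  by_cases h2 : r = t
  · rw [h2]; exact Or.inr δt
  rcases h.off s hs r hr (Ne.symm h1) with e | e <;>
    rcases h.off t ht r hr (Ne.symm h2) with f | f
  · exact Or.inl (z3 r (mem_cell.2 ⟨hr, e, f⟩))
  · exact Or.inl (z2 r (mem_cell.2 ⟨hr, e, f⟩))
  · exact Or.inl (z1 r (mem_cell.2 ⟨hr, e, f⟩))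
  · exact z4 r (mem_cell.2 ⟨hr, e, f⟩)

end Cfsg.Agent.S77
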