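import Mathlib
import Cfsg.Agent.Spor.HSUnique
import Cfsg.Agent.Spor.SRG77a

/-!
# `srg(77,16,0,4)`: functions in the `-6` eigenspace and the lines
-/

set_option autoImplicit false
set_option linter.unusedSectionVars false
set_option linter.unusedSimpArgs false

namespace Cfsg.Agent.S77

open Finset

variable {V : Type*} [Fintype V] [DecidableEq V] (G : SimpleGraph V) [DecidableRel G.Adj]

/-- Adjacency indicator. -/
def ad (x y : V) : ℤ := if G.Adj x y then 1 else 0

/-- The Gram function `2 I - A + J`. -/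
def gr (x z : V) : ℤ := (if x = z then 2 else 0) - ad G x z + 1

/-- Functions of level `s` in the span of the constants and the `-6` eigenspace. -/
def Good (φ : V → ℤ) (s : ℤ) : Prop :=
  ∑ z, φ z = 21 * s ∧ ∀ x, ∑ y, ad G x y * φ y = -6 * φ x + 6 * s

/-- Number of common neighbours of three vertices. -/
def mm (x y z : V) : ℤ := ∑ a, ad G x a * ad G y a * ad G z a

/-- The line function of two non-adjacent vertices. -/
def rr (x y z : V) : ℤ := ∑ a, ad G x a * ad G y a * gr G a z + 2 * gr G x z + 2 * gr G y z - 6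

variable {G}

theorem ad_symm (x y : V) : ad G x y = ad G y x := by
  simp only [ad, G.adj_comm]

theorem ad_self (x : V) : ad G x x = 0 := by simp [ad]

theorem ad_of {x y : V} (h : G.Adj x y) : ad G x y = 1 := by simp [ad, h]

theorem ad_of_not {x y : V} (h : ¬ G.Adj x y) : ad G x y = 0 := by simp [ad, h]

theorem ad_nonneg (x y : V) : 0 ≤ ad G x y := by unfold ad; split_ifs <;> norm_num

theorem gr_self (x : V) : gr G x x = 3 := by simp [gr, ad]

theorem gr_adj {x y : V} (h : G.Adj x y) : gr G x y = 0 := by simp [gr, ad, h, h.ne]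

theorem gr_not {x y : V} (h1 : x ≠ y) (h : ¬ G.Adj x y) : gr G x y = 1 := by simp [gr, ad, h, h1]

theorem sum_ad (h : G.IsSRGWith 77 16 0 4) (x : V) : ∑ y, ad G x y = 16 := by
  have := Spor.srg_card_nbr h x
  rw [card_filter] at this
  unfold ad
  exact_mod_cast this

theorem sum_ad_ad (h : G.IsSRGWith 77 16 0 4) (x z : V) :
    ∑ y, ad G x y * ad G z y = (if x = z then 12 else 0) - 4 * ad G x z + 4 := by
  have e : ∑ y, ad G x y * ad G z y =
      ((univ.filter fun p => G.Adj x p ∧ G.Adj z p).card : ℤ) := by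
    rw [card_filter]
    push_cast
    refine sum_congr rfl fun y _ => ?_
    by_cases h1 : G.Adj x y <;> by_cases h2 : G.Adj z y <;> simp [ad, h1, h2]
  rw [e]
  by_cases h1 : x = z
  · subst h1
    simp only [and_self, Spor.srg_card_nbr h, ad_self]
    norm_num
  by_cases h2 : G.Adj x z
  · rw [Spor.srg_card_common_adj h h2, ad_of h2]; simp [h1]
  · rw [Spor.srg_card_common_not_adj h h1 h2, ad_of_not h2]; simp [h1]

theorem sum_one (h : G.IsSRGWith 77 16 0 4) (c : ℤ) : ∑ _y : V, c = 77 * c := by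
  simp [h.card]

theorem good_gr (h : G.IsSRGWith 77 16 0 4) (x : V) : Good G (gr G x) 3 := by
  constructor
  · simp only [gr, sum_add_distrib, sum_sub_distrib, sum_ad h, sum_one h, sum_ite_eq, mem_univ,
      if_true]
    norm_num
  · intro y
    simp only [gr, mul_add, mul_sub, sum_add_distrib, sum_sub_distrib, mul_one, sum_ad h,
      sum_ad_ad h, mul_ite, mul_zero, sum_ite_eq, mem_univ, if_true, ad_symm y x, eq_comm (a := y)]
    split_ifs <;> ring

theorem good_const (h : G.IsSRGWith 77 16 0 4) (k : ℤ) : Good G (fun _ => 3 * k) (11 * k) := by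
  constructor
  · rw [sum_one h]; ring
  · intro y
    rw [← sum_mul, sum_ad h]; ring

theorem Good.add {φ ψ : V → ℤ} {s t : ℤ} (h1 : Good G φ s) (h2 : Good G ψ t) :
    Good G (fun z => φ z + ψ z) (s + t) := by
  constructor
  · rw [sum_add_distrib, h1.1, h2.1]; ring
  · intro x
    simp only [mul_add, sum_add_distrib, h1.2, h2.2]; ring

theorem Good.smul {φ : V → ℤ} {s : ℤ} (h1 : Good G φ s) (c : ℤ) :
    Good G (fun z => c * φ z) (c * s) := by
  constructor
  · rw [← mul_sum, h1.1]; ring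
  · intro x
    simp only [mul_left_comm _ c, ← mul_sum, h1.2]; ring

theorem Good.sum {κ : Type*} (S : Finset κ) {φ : κ → V → ℤ} {s : κ → ℤ}
    (h1 : ∀ k ∈ S, Good G (φ k) (s k)) : Good G (fun z => ∑ k ∈ S, φ k z) (∑ k ∈ S, s k) := by
  constructor
  · rw [sum_comm, mul_sum]
    exact sum_congr rfl fun k hk => (h1 k hk).1
  · intro x
    simp only [mul_sum]
    rw [sum_comm, ← sum_add_distrib]
    exact sum_congr rfl fun k hk => (h1 k hk).2 x

theorem Good.congr {φ ψ : V → ℤ} {s t : ℤ} (h1 : Good G φ s) (e : ∀ z, φ z = ψ z) (f : s = t) :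
    Good G ψ t := by
  rw [← funext e, ← f]; exact h1

theorem Good.ip_gr {φ : V → ℤ} {s : ℤ} (h1 : Good G φ s) (x : V) :
    ∑ z, φ z * gr G x z = 8 * φ x + 15 * s := by
  have := h1.2 x
  simp only [gr, mul_add, mul_sub, sum_add_distrib, sum_sub_distrib, mul_one, h1.1, mul_ite,
    mul_zero, sum_ite_eq, mem_univ, if_true, mul_comm _ (ad G x _), this]
  ring

theorem sum_w (h : G.IsSRGWith 77 16 0 4) {x y : V} (h1 : x ≠ y) (h2 : ¬ G.Adj x y) :
    ∑ a, ad G x a * ad G y a = 4 := by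
  rw [sum_ad_ad h, ad_of_not h2]; simp [h1]

theorem good_rr (h : G.IsSRGWith 77 16 0 4) {x y : V} (h1 : x ≠ y) (h2 : ¬ G.Adj x y) :
    Good G (rr G x y) 2 := by
  have a := Good.sum (G := G) univ (φ := fun a z => ad G x a * ad G y a * gr G a z)
    (s := fun a => ad G x a * ad G y a * 3) fun a _ => (good_gr h a).smul _
  refine (((a.add ((good_gr h x).smul 2)).add ((good_gr h y).smul 2)).add
    (good_const h (-2))).congr (fun z => ?_) ?_
  · simp only [rr]; ring
  · rw [← sum_mul, sum_w h h1 h2]; norm_num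

theorem Good.ip_rr (h : G.IsSRGWith 77 16 0 4) {φ : V → ℤ} {s : ℤ} (hφ : Good G φ s) {x y : V}
    (h1 : x ≠ y) (h2 : ¬ G.Adj x y) :
    ∑ z, φ z * rr G x y z =
      8 * ∑ a, ad G x a * ad G y a * φ a + 16 * φ x + 16 * φ y - 6 * s := by
  have e : ∑ z, φ z * ∑ a, ad G x a * ad G y a * gr G a z =
      8 * ∑ a, ad G x a * ad G y a * φ a + 60 * s := by
    simp only [mul_sum]
    rw [sum_comm, sum_congr rfl (g := fun a => 8 * (ad G x a * ad G y a * φ a) +
      ad G x a * ad G y a * (15 * s)) fun a _ => by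
        simp only [mul_left_comm (φ _), ← mul_sum, hφ.ip_gr]; ring]
    rw [sum_add_distrib, ← sum_mul, sum_w h h1 h2]; ring
  simp only [rr, mul_add, mul_sub, sum_add_distrib, sum_sub_distrib, e, mul_left_comm _ (2 : ℤ),
    ← mul_sum, hφ.ip_gr, ← sum_mul, hφ.1]
  ring

theorem no_K33 (h : G.IsSRGWith 77 16 0 4) {x y z a b c : V} (hxy : x ≠ y) (hxz : x ≠ z)
    (hyz : y ≠ z) (hab : a ≠ b) (hac : a ≠ c) (hbc : b ≠ c)
    (xa : G.Adj x a) (xb : G.Adj x b) (xc : G.Adj x c) (ya : G.Adj y a) (yb : G.Adj y b)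
    (yc : G.Adj y c) (za : G.Adj z a) (zb : G.Adj z b) (zc : G.Adj z c) : False := by
  have nt := fun {u v w : V} => Spor.srg_no_triangle (u := u) (v := v) (w := w) h
  have n1 : ¬ G.Adj x y := nt xa.symm ya.symm
  have n2 : ¬ G.Adj x z := nt xa.symm za.symm
  have n3 : ¬ G.Adj y z := nt ya.symm za.symm
  have n4 : ¬ G.Adj a b := nt xa xb
  have n5 : ¬ G.Adj a c := nt xa xc
  have n6 : ¬ G.Adj b c := nt xb xc
  set w : V → ℤ := fun v => 6 - (gr G x v + gr G y v + gr G z v + gr G a v + gr G b v + gr G c v)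
    with hw
  have gw : Good G w 4 := by
    refine ((good_const h 2).add (((((((good_gr h x).add (good_gr h y)).add (good_gr h z)).add
      (good_gr h a)).add (good_gr h b)).add (good_gr h c)).smul (-1))).congr (fun v => ?_) ?_
    · simp only [hw]; ring
    · norm_num
  have sy : ∀ {u v : V}, ¬ G.Adj u v → ¬ G.Adj v u := fun h1 h2 => h1 h2.symm
  have wx : w x = 1 := by
    simp only [hw, gr_self, gr_not hxy.symm (sy n1), gr_not hxz.symm (sy n2), gr_adj xa.symm,
      gr_adj xb.symm, gr_adj xc.symm]; norm_num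
  have wy : w y = 1 := by
    simp only [hw, gr_self, gr_not hxy n1, gr_not hyz.symm (sy n3), gr_adj ya.symm,
      gr_adj yb.symm, gr_adj yc.symm]; norm_num
  have wz : w z = 1 := by
    simp only [hw, gr_self, gr_not hxz n2, gr_not hyz n3, gr_adj za.symm,
      gr_adj zb.symm, gr_adj zc.symm]; norm_num
  have wa : w a = 1 := by
    simp only [hw, gr_self, gr_not hab.symm (sy n4), gr_not hac.symm (sy n5), gr_adj xa,
      gr_adj ya, gr_adj za]; norm_num
  have wb : w b = 1 := by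
    simp only [hw, gr_self, gr_not hab n4, gr_not hbc.symm (sy n6), gr_adj xb,
      gr_adj yb, gr_adj zb]; norm_num
  have wc : w c = 1 := by
    simp only [hw, gr_self, gr_not hac n5, gr_not hbc n6, gr_adj xc,
      gr_adj yc, gr_adj zc]; norm_num
  have s2 : ∑ v, w v * w v = 96 := by
    have : ∀ v, w v * w v = 6 * w v - (w v * gr G x v + w v * gr G y v + w v * gr G z v +
        w v * gr G a v + w v * gr G b v + w v * gr G c v) := fun v => by
      conv_lhs => rw [show w v * w v = w v * (6 - (gr G x v + gr G y v + gr G z v + gr G a v +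
        gr G b v + gr G c v)) from rfl]
      ring
    simp only [this, sum_sub_distrib, sum_add_distrib, ← mul_sum, gw.1, gw.ip_gr, wx, wy, wz, wa,
      wb, wc]
    norm_num
  have q : 0 ≤ ∑ v, (w v * w v - 3 * w v + 2) := sum_nonneg fun v _ => by
    rcases le_or_gt (w v) 1 with e | e <;> nlinarith
  rw [sum_add_distrib, sum_sub_distrib, ← mul_sum, s2, gw.1, sum_one h] at q
  norm_num at q

theorem mm_nonneg (x y z : V) : 0 ≤ mm G x y z :=
  sum_nonneg fun _ _ => mul_nonneg (mul_nonneg (ad_nonneg _ _) (ad_nonneg _ _)) (ad_nonneg _ _)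

theorem mm_le (h : G.IsSRGWith 77 16 0 4) {x y z : V} (hxy : x ≠ y) (hxz : x ≠ z) (hyz : y ≠ z) :
    mm G x y z ≤ 2 := by
  have e : mm G x y z = ((univ.filter fun p => G.Adj x p ∧ G.Adj y p ∧ G.Adj z p).card : ℤ) := by
    rw [card_filter, mm]
    push_cast
    refine sum_congr rfl fun p _ => ?_
    by_cases h1 : G.Adj x p <;> by_cases h2 : G.Adj y p <;> by_cases h3 : G.Adj z p <;>
      simp [ad, h1, h2, h3]
  rw [e]
  by_contra hc
  have : 2 < (univ.filter fun p => G.Adj x p ∧ G.Adj y p ∧ G.Adj z p).card := by omega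
  obtain ⟨a, b, c, ha, hb, hc, hab, hac, hbc⟩ := two_lt_card_iff.1 this
  simp only [mem_filter, mem_univ, true_and] at ha hb hc
  exact no_K33 h hxy hxz hyz hab hac hbc ha.1 hb.1 hc.1 ha.2.1 hb.2.1 hc.2.1 ha.2.2 hb.2.2 hc.2.2

theorem mm_adj (h : G.IsSRGWith 77 16 0 4) {x z : V} (y : V) (hxz : G.Adj x z) :
    mm G x y z = 0 := by
  refine sum_eq_zero fun p _ => ?_
  by_cases h1 : G.Adj x p
  · rw [ad_of_not (x := z) fun h3 => Spor.srg_no_triangle h hxz h1 h3]; ring
  · rw [ad_of_not h1]; ring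

theorem mm_swap (x y z : V) : mm G x y z = mm G y x z :=
  sum_congr rfl fun _ _ => by ring

theorem mm_swap' (x y z : V) : mm G x y z = mm G x z y :=
  sum_congr rfl fun _ _ => by ring

theorem rr_swap (x y : V) : rr G x y = rr G y x := by
  funext z
  simp only [rr, mul_comm (ad G x _)]; ring

theorem rr_eq (h : G.IsSRGWith 77 16 0 4) {x y : V} (h1 : x ≠ y) (h2 : ¬ G.Adj x y) (z : V) :
    rr G x y z = 2 * (ad G x z * ad G y z) - mm G x y z + 2 * gr G x z + 2 * gr G y z - 2 := by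
  have : ∑ a, ad G x a * ad G y a * gr G a z =
      2 * (ad G x z * ad G y z) - mm G x y z + 4 := by
    simp only [gr, mul_add, mul_sub, sum_add_distrib, sum_sub_distrib, mul_one, sum_w h h1 h2,
      mul_ite, mul_zero, sum_ite_eq', mem_univ, if_true, mm, ad_symm _ z]
    ring
  rw [rr, this]; ring

theorem rr_left (h : G.IsSRGWith 77 16 0 4) {x y : V} (h1 : x ≠ y) (h2 : ¬ G.Adj x y) :
    rr G x y x = 2 := by
  have : mm G x y x = 4 := by
    rw [← sum_w h h1 h2]
    refine sum_congr rfl fun p _ => ?_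
    by_cases h1 : G.Adj x p <;> simp [ad, h1]
  rw [rr_eq h h1 h2, this, gr_self, gr_not h1.symm (fun e => h2 e.symm), ad_self]; ring

theorem rr_right (h : G.IsSRGWith 77 16 0 4) {x y : V} (h1 : x ≠ y) (h2 : ¬ G.Adj x y) :
    rr G x y y = 2 := by
  rw [rr_swap]; exact rr_left h h1.symm fun e => h2 e.symm

theorem rr_adj (h : G.IsSRGWith 77 16 0 4) {x y z : V} (h1 : x ≠ y) (h2 : ¬ G.Adj x y)
    (h3 : G.Adj x z) : rr G x y z = 0 := by
  rw [rr_eq h h1 h2, mm_adj h y h3, gr_adj h3, ad_of h3]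
  by_cases h4 : G.Adj y z
  · rw [gr_adj h4, ad_of h4]; ring
  · rw [gr_not (x := y) (y := z) (fun e => h2 (by rw [e]; exact h3)) h4, ad_of_not h4]; ring

theorem rr_adj' (h : G.IsSRGWith 77 16 0 4) {x y z : V} (h1 : x ≠ y) (h2 : ¬ G.Adj x y)
    (h3 : G.Adj y z) : rr G x y z = 0 := by
  rw [rr_swap]; exact rr_adj h h1.symm (fun e => h2 e.symm) h3

theorem rr_far (h : G.IsSRGWith 77 16 0 4) {x y z : V} (h1 : x ≠ y) (h2 : ¬ G.Adj x y)
    (h3 : x ≠ z) (h4 : ¬ G.Adj x z) (h5 : y ≠ z) (h6 : ¬ G.Adj y z) :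
    rr G x y z = 2 - mm G x y z := by
  rw [rr_eq h h1 h2, gr_not h3 h4, gr_not h5 h6, ad_of_not h4]; ring

theorem rr_range (h : G.IsSRGWith 77 16 0 4) {x y : V} (h1 : x ≠ y) (h2 : ¬ G.Adj x y) (z : V) :
    rr G x y z = 0 ∨ rr G x y z = 1 ∨ rr G x y z = 2 := by
  by_cases h3 : x = z
  · subst h3; exact Or.inr (Or.inr (rr_left h h1 h2))
  by_cases h5 : y = z
  · subst h5; exact Or.inr (Or.inr (rr_right h h1 h2))
  by_cases h4 : G.Adj x z
  · exact Or.inl (rr_adj h h1 h2 h4)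
  by_cases h6 : G.Adj y z
  · exact Or.inl (rr_adj' h h1 h2 h6)
  have := mm_le h h1 h3 h5
  have := mm_nonneg (G := G) x y z
  rw [rr_far h h1 h2 h3 h4 h5 h6]
  omega

theorem rr_nonneg (h : G.IsSRGWith 77 16 0 4) {x y : V} (h1 : x ≠ y) (h2 : ¬ G.Adj x y) (z : V) :
    0 ≤ rr G x y z := by
  rcases rr_range h h1 h2 z with e | e | e <;> rw [e] <;> norm_num

/-- Symmetry in the last two arguments. -/
theorem rr_symm (h : G.IsSRGWith 77 16 0 4) {x y z : V} (h1 : x ≠ y) (h2 : ¬ G.Adj x y)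
    (h3 : x ≠ z) (h4 : ¬ G.Adj x z) : rr G x y z = rr G x z y := by
  by_cases h5 : y = z
  · rw [h5]
  by_cases h6 : G.Adj y z
  · rw [rr_adj' h h1 h2 h6, rr_adj' h h3 h4 h6.symm]
  rw [rr_far h h1 h2 h3 h4 h5 h6, rr_far h h3 h4 h1 h2 (Ne.symm h5) (fun e => h6 e.symm), mm_swap']

/-- Inner product with a line through `x` of a function vanishing on the neighbours of `x`. -/
theorem Good.ip_rr0 (h : G.IsSRGWith 77 16 0 4) {φ : V → ℤ} {s : ℤ} (hφ : Good G φ s) {x y : V}
    (h1 : x ≠ y) (h2 : ¬ G.Adj x y) (h0 : ∀ a, G.Adj x a → φ a = 0) :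
    ∑ z, φ z * rr G x y z = 16 * φ x + 16 * φ y - 6 * s := by
  rw [hφ.ip_rr h h1 h2, sum_eq_zero fun a _ => ?_]
  · ring
  by_cases e : G.Adj x a
  · rw [h0 a e]; ring
  · rw [ad_of_not e]; ring

theorem rr_sq (h : G.IsSRGWith 77 16 0 4) {x y : V} (h1 : x ≠ y) (h2 : ¬ G.Adj x y) :
    ∑ z, rr G x y z * rr G x y z = 52 := by
  rw [(good_rr h h1 h2).ip_rr0 h h1 h2 fun a ha => rr_adj h h1 h2 ha, rr_left h h1 h2,
    rr_right h h1 h2]
  norm_num

theorem card_two (h : G.IsSRGWith 77 16 0 4) {x y : V} (h1 : x ≠ y) (h2 : ¬ G.Adj x y) :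
    (univ.filter fun z => rr G x y z = 2).card = 5 := by
  have e : ∑ z, (rr G x y z * rr G x y z - rr G x y z) =
      2 * ((univ.filter fun z => rr G x y z = 2).card : ℤ) := by
    rw [card_filter]
    push_cast
    rw [mul_sum]
    refine sum_congr rfl fun z _ => ?_
    rcases rr_range h h1 h2 z with e | e | e <;> simp [e]
  rw [sum_sub_distrib, rr_sq h h1 h2, (good_rr h h1 h2).1] at e
  omega

theorem card_one (h : G.IsSRGWith 77 16 0 4) {x y : V} (h1 : x ≠ y) (h2 : ¬ G.Adj x y) :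
    (univ.filter fun z => rr G x y z = 1).card = 32 := by
  have e : ∑ z, (2 * rr G x y z - rr G x y z * rr G x y z) =
      ((univ.filter fun z => rr G x y z = 1).card : ℤ) := by
    rw [card_filter]
    push_cast
    refine sum_congr rfl fun z _ => ?_
    rcases rr_range h h1 h2 z with e | e | e <;> simp [e]
  rw [sum_sub_distrib, rr_sq h h1 h2, ← mul_sum, (good_rr h h1 h2).1] at e
  omega

theorem eq_of_ip {φ ψ : V → ℤ} {c : ℤ} (h1 : ∑ z, φ z * φ z = c) (h2 : ∑ z, ψ z * ψ z = c)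
    (h3 : c ≤ ∑ z, φ z * ψ z) : φ = ψ := by
  have e : ∑ z, (φ z - ψ z) ^ 2 = 2 * c - 2 * ∑ z, φ z * ψ z := by
    rw [sum_congr rfl (g := fun z => φ z * φ z + ψ z * ψ z - 2 * (φ z * ψ z)) fun z _ => by ring,
      sum_sub_distrib, sum_add_distrib, ← mul_sum, h1, h2]; ring
  have f : ∑ z, (φ z - ψ z) ^ 2 = 0 :=
    le_antisymm (by linarith) (sum_nonneg fun _ _ => sq_nonneg _)
  rw [sum_eq_zero_iff_of_nonneg fun _ _ => sq_nonneg _] at f
  funext z
  have := pow_eq_zero_iff two_ne_zero |>.1 (f z (mem_univ z))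
  linarith

/-- A line is determined by any two of its points. -/
theorem rr_line (h : G.IsSRGWith 77 16 0 4) {x y z : V} (h1 : x ≠ y) (h2 : ¬ G.Adj x y)
    (h3 : x ≠ z) (hz : rr G x y z = 2) : ¬ G.Adj x z ∧ rr G x y = rr G x z := by
  have h4 : ¬ G.Adj x z := fun e => by
    rw [rr_adj h h1 h2 e] at hz; norm_num at hz
  refine ⟨h4, eq_of_ip (rr_sq h h1 h2) (rr_sq h h3 h4) ?_⟩
  rw [(good_rr h h1 h2).ip_rr0 h h3 h4 fun a ha => rr_adj h h1 h2 ha, rr_left h h1 h2, hz]
  norm_num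

end Cfsg.Agent.S77
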