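import Mathlib
import Cfsg.Agent.Spor.SRG77b

/-!
# `srg(77,16,0,4)`: the 22 cocliques of size 21 and uniqueness
-/

set_option autoImplicit false
set_option linter.unusedSectionVars false
set_option linter.unusedSimpArgs false

namespace Cfsg.Agent.S77

open Finset

variable {V : Type*} [Fintype V] [DecidableEq V] (G : SimpleGraph V) [DecidableRel G.Adj]

/-- Non-neighbours. -/
def nn (x : V) : Finset V := univ.filter fun z => x ≠ z ∧ ¬ G.Adj x z

/-- The lines through `x`. -/
noncomputable def lines (x : V) : Finset (V → ℤ) := by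
  classical exact (nn G x).image (rr G x)

/-- A second point on a line through `x`. -/
noncomputable def rep (x : V) (l : V → ℤ) : V := by
  classical exact if h : ∃ y ∈ nn G x, rr G x y = l then h.choose else x

/-- The Gram matrix of the lines through `x`. -/
noncomputable def la (x : V) (l m : V → ℤ) : ℤ := l (rep G x m)

variable {G}

theorem mem_nn {x z : V} : z ∈ nn G x ↔ x ≠ z ∧ ¬ G.Adj x z := by simp [nn]

theorem mem_lines {x : V} {l : V → ℤ} : l ∈ lines G x ↔ ∃ y ∈ nn G x, rr G x y = l := by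
  simp [lines]

theorem rr_mem {x y : V} (hy : y ∈ nn G x) : rr G x y ∈ lines G x := mem_lines.2 ⟨y, hy, rfl⟩

theorem rep_spec {x : V} {l : V → ℤ} (hl : l ∈ lines G x) :
    rep G x l ∈ nn G x ∧ rr G x (rep G x l) = l := by
  have h := mem_lines.1 hl
  simp only [rep, dif_pos h]
  exact h.choose_spec

theorem sum_split (x : V) (φ : V → ℤ) (h0 : ∀ a, G.Adj x a → φ a = 0) :
    ∑ z, φ z = φ x + ∑ z ∈ nn G x, φ z := by
  have e : φ x = ∑ z, if x = z then φ z else 0 := by simp
  rw [e, nn, sum_filter, ← sum_add_distrib]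
  refine sum_congr rfl fun z _ => ?_
  by_cases h1 : x = z
  · simp [h1]
  by_cases h2 : G.Adj x z
  · simp [h1, h2, h0 z h2]
  · simp [h1, h2]

theorem card_nn (h : G.IsSRGWith 77 16 0 4) (x : V) : (nn G x).card = 60 := by
  have e := sum_split (G := G) x (fun z => 1 - ad G x z) fun a ha => by rw [ad_of ha]; ring
  rw [sum_sub_distrib, sum_one h, sum_ad h, ad_self,
    sum_congr rfl (g := fun _ => 1) fun z hz => by rw [ad_of_not (mem_nn.1 hz).2]; ring] at e
  simp at e
  omega

theorem la_rr (h : G.IsSRGWith 77 16 0 4) {x y : V} {l : V → ℤ} (hl : l ∈ lines G x)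
    (hy : y ∈ nn G x) : la G x l (rr G x y) = l y := by
  obtain ⟨z, hz, rfl⟩ := mem_lines.1 hl
  obtain ⟨h1, h2⟩ := rep_spec (rr_mem hy)
  rw [la, rr_symm h (mem_nn.1 hz).1 (mem_nn.1 hz).2 (mem_nn.1 h1).1 (mem_nn.1 h1).2, h2,
    rr_symm h (mem_nn.1 hz).1 (mem_nn.1 hz).2 (mem_nn.1 hy).1 (mem_nn.1 hy).2]

theorem sum_nn (h : G.IsSRGWith 77 16 0 4) (x : V) (f : (V → ℤ) → ℤ) :
    ∑ z ∈ nn G x, f (rr G x z) = 4 * ∑ l ∈ lines G x, f l := by
  classical
  rw [sum_comp f (rr G x), mul_sum]
  have : lines G x = (nn G x).image (rr G x) := by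
    ext l; simp [mem_lines]
  rw [← this]
  refine sum_congr rfl fun l hl => ?_
  obtain ⟨y, hy, rfl⟩ := mem_lines.1 hl
  obtain ⟨h1, h2⟩ := mem_nn.1 hy
  have e : (nn G x).filter (fun a => rr G x a = rr G x y) =
      (univ.filter fun z => rr G x y z = 2).erase x := by
    ext z
    simp only [mem_filter, mem_erase, mem_univ, true_and, mem_nn]
    constructor
    · rintro ⟨⟨h3, h4⟩, h5⟩
      exact ⟨h3.symm, by rw [← h5, rr_right h h3 h4]⟩
    · rintro ⟨h3, h4⟩
      obtain ⟨h5, h6⟩ := rr_line h h1 h2 h3.symm h4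
      exact ⟨⟨h3.symm, h5⟩, h6.symm⟩
  rw [e, card_erase_of_mem (by simp [rr_left h h1 h2]), card_two h h1 h2]
  simp

theorem t6 (h : G.IsSRGWith 77 16 0 4) (x : V) : T6 (lines G x) (la G x) where
  card := by
    have := sum_nn h x fun _ => 1
    simp [card_nn h] at this
    omega
  symm := by
    intro l hl m hm
    obtain ⟨y, hy, rfl⟩ := mem_lines.1 hl
    obtain ⟨z, hz, rfl⟩ := mem_lines.1 hm
    rw [la_rr h hl hz, la_rr h hm hy,
      rr_symm h (mem_nn.1 hz).1 (mem_nn.1 hz).2 (mem_nn.1 hy).1 (mem_nn.1 hy).2]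
  diag := by
    intro l hl
    obtain ⟨y, hy, rfl⟩ := mem_lines.1 hl
    rw [la_rr h hl hy, rr_right h (mem_nn.1 hy).1 (mem_nn.1 hy).2]
  off := by
    intro l hl m hm hne
    obtain ⟨y, hy, rfl⟩ := mem_lines.1 hl
    obtain ⟨z, hz, rfl⟩ := mem_lines.1 hm
    rw [la_rr h hl hz]
    rcases rr_range h (mem_nn.1 hy).1 (mem_nn.1 hy).2 z with e | e | e
    · exact Or.inl e
    · exact Or.inr e
    · exact (hne (rr_line h (mem_nn.1 hy).1 (mem_nn.1 hy).2 (mem_nn.1 hz).1 e).2).elim
  row := by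
    intro l hl
    have e := sum_nn h x (la G x l)
    rw [sum_congr rfl fun z hz => la_rr h hl hz] at e
    obtain ⟨y, hy, rfl⟩ := mem_lines.1 hl
    obtain ⟨h1, h2⟩ := mem_nn.1 hy
    have f := sum_split x (rr G x y) fun a ha => rr_adj h h1 h2 ha
    rw [(good_rr h h1 h2).1, rr_left h h1 h2] at f
    omega
  sq := by
    intro l hl m hm
    have e := sum_nn h x fun k => la G x l k * la G x m k
    rw [sum_congr rfl (g := fun z => l z * m z) fun z hz => by
      rw [la_rr h hl hz, la_rr h hm hz]] at e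
    obtain ⟨y, hy, rfl⟩ := mem_lines.1 hl
    obtain ⟨z, hz, rfl⟩ := mem_lines.1 hm
    obtain ⟨h1, h2⟩ := mem_nn.1 hy
    obtain ⟨h3, h4⟩ := mem_nn.1 hz
    have f := sum_split x (fun w => rr G x y w * rr G x z w) fun a ha => by
      rw [rr_adj h h1 h2 ha]; ring
    rw [(good_rr h h1 h2).ip_rr0 h h3 h4 fun a ha => rr_adj h h1 h2 ha, rr_left h h1 h2,
      rr_left h h3 h4] at f
    rw [la_rr h hl hz]
    omega

variable (G) in
/-- Indicator functions of the 21-cocliques. -/
def Pt (χ : V → ℤ) : Prop := Good G χ 1 ∧ ∀ z, χ z = 0 ∨ χ z = 1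

theorem Pt.nonneg {χ : V → ℤ} (hχ : Pt G χ) (z : V) : 0 ≤ χ z := by
  rcases hχ.2 z with e | e <;> rw [e] <;> norm_num

theorem Pt.adj {χ : V → ℤ} (hχ : Pt G χ) {x a : V} (hx : χ x = 1) (ha : G.Adj x a) : χ a = 0 := by
  have e := hχ.1.2 x
  rw [hx, show (-6 : ℤ) * 1 + 6 * 1 = 0 by norm_num,
    sum_eq_zero_iff_of_nonneg fun y _ => mul_nonneg (ad_nonneg _ _) (hχ.nonneg y)] at e
  have := e a (mem_univ a)
  rwa [ad_of ha, one_mul] at this

theorem Pt.sq {χ : V → ℤ} (hχ : Pt G χ) : ∑ z, χ z * χ z = 21 := by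
  rw [sum_congr rfl (g := χ) fun z _ => by rcases hχ.2 z with e | e <;> simp [e], hχ.1.1]
  norm_num

theorem Pt.ip (h : G.IsSRGWith 77 16 0 4) {χ : V → ℤ} (hχ : Pt G χ) {x y : V} (hx : χ x = 1)
    (hy : y ∈ nn G x) : ∑ z, χ z * rr G x y z = 16 * χ y + 10 := by
  rw [hχ.1.ip_rr0 h (mem_nn.1 hy).1 (mem_nn.1 hy).2 fun a ha => hχ.adj hx ha, hx]; ring

theorem Pt.cls (h : G.IsSRGWith 77 16 0 4) {χ : V → ℤ} (hχ : Pt G χ) {x y z : V} (hx : χ x = 1)
    (hy : y ∈ nn G x) (hz : z ∈ nn G x) (e : rr G x y = rr G x z) : χ y = χ z := by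
  have h1 := hχ.ip h hx hy
  rw [e, hχ.ip h hx hz] at h1
  omega

theorem Pt.rep (h : G.IsSRGWith 77 16 0 4) {χ : V → ℤ} (hχ : Pt G χ) {x y : V} (hx : χ x = 1)
    (hy : y ∈ nn G x) : χ (rep G x (rr G x y)) = χ y :=
  hχ.cls h hx (rep_spec (rr_mem hy)).1 hy (rep_spec (rr_mem hy)).2

theorem exists_pt (h : G.IsSRGWith 77 16 0 4) {x y y' : V} (hy : y ∈ nn G x) (hy' : y' ∈ nn G x)
    (e : rr G x y y' = 1) : ∃! χ, Pt G χ ∧ χ x = 1 ∧ χ y = 1 ∧ χ y' = 1 := by
  classical
  have T := t6 h x
  have hs := rr_mem hy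
  have ht := rr_mem hy'
  have hst : la G x (rr G x y) (rr G x y') = 1 := by rw [la_rr h hs hy', e]
  obtain ⟨cD, δs, δt, hδ⟩ := T.main hs ht hst
  have sp := T.split hs ht hst
  set D := cell (lines G x) (la G x) (rr G x y) (rr G x y') 1 1 with hD
  have hDR : D ⊆ lines G x := cell_sub
  set U : V → ℤ := fun z => ∑ l ∈ D, l z - 2 * gr G x z with hU
  have gU : Good G U 2 := by
    have a := Good.sum (G := G) D (φ := fun l z => l z) (s := fun _ => 2) fun l hl => by
      obtain ⟨w, hw, rfl⟩ := mem_lines.1 (hDR hl)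
      exact good_rr h (mem_nn.1 hw).1 (mem_nn.1 hw).2
    refine (a.add ((good_gr h x).smul (-2))).congr (fun z => ?_) ?_
    · simp only [hU]; ring
    · simp [cD]
  have Ux : U x = 2 := by
    simp only [hU]
    rw [sum_congr rfl (g := fun _ => 2) fun l hl => by
      obtain ⟨w, hw, rfl⟩ := mem_lines.1 (hDR hl)
      exact rr_left h (mem_nn.1 hw).1 (mem_nn.1 hw).2, gr_self]
    simp [cD]
  have Ua : ∀ a, G.Adj x a → U a = 0 := by
    intro a ha
    simp only [hU]
    rw [sum_eq_zero fun l hl => by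
      obtain ⟨w, hw, rfl⟩ := mem_lines.1 (hDR hl)
      exact rr_adj h (mem_nn.1 hw).1 (mem_nn.1 hw).2 ha, gr_adj ha]
    ring
  have Un : ∀ z ∈ nn G x, U z = ∑ l ∈ D, la G x l (rr G x z) - 2 := by
    intro z hz
    simp only [hU]
    rw [sum_congr rfl fun l hl => la_rr h (hDR hl) hz, gr_not (mem_nn.1 hz).1 (mem_nn.1 hz).2]
    ring
  have Ur : ∀ z, U z = 0 ∨ U z = 2 := by
    intro z
    by_cases h1 : x = z
    · rw [← h1]; exact Or.inr Ux
    by_cases h2 : G.Adj x z
    · exact Or.inl (Ua z h2)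
    have hz : z ∈ nn G x := mem_nn.2 ⟨h1, h2⟩
    rw [Un z hz]
    rcases hδ _ (rr_mem hz) with f | f <;> rw [f] <;> norm_num
  set χ : V → ℤ := fun z => U z / 2 with hχ
  have U2 : ∀ z, U z = 2 * χ z := fun z => by
    simp only [hχ]; rcases Ur z with f | f <;> rw [f] <;> norm_num
  have pχ : Pt G χ := by
    refine ⟨⟨?_, fun w => ?_⟩, fun z => ?_⟩
    · have := gU.1
      simp only [U2, ← mul_sum] at this
      omega
    · have := gU.2 w
      simp only [U2, mul_left_comm _ (2 : ℤ), ← mul_sum] at this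
      omega
    · have := U2 z
      rcases Ur z with f | f <;> omega
  refine ⟨χ, ⟨pχ, ?_, ?_, ?_⟩, ?_⟩
  · have := U2 x; omega
  · have := U2 y; rw [Un y hy, δs] at this; omega
  · have := U2 y'; rw [Un y' hy', δt] at this; omega
  rintro ψ ⟨pψ, x1, y1, y2⟩
  set c : (V → ℤ) → ℤ := fun l => ψ (rep G x l) with hc
  have cn : ∀ z ∈ nn G x, c (rr G x z) = ψ z := fun z hz => pψ.rep h x1 hz
  have c0 : ∀ l, 0 ≤ c l := fun l => pψ.nonneg _
  have s0 : ∑ l ∈ lines G x, c l = 5 := by
    have a := sum_nn h x c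
    rw [sum_congr rfl cn] at a
    have b := sum_split x ψ fun a ha => pψ.adj x1 ha
    rw [pψ.1.1, x1] at b
    linarith
  have s1 : ∀ w ∈ nn G x, ψ w = 1 → ∑ l ∈ lines G x, c l * la G x (rr G x w) l = 6 := by
    intro w hw w1
    have a := sum_nn h x fun l => c l * la G x (rr G x w) l
    rw [sum_congr rfl (g := fun z => ψ z * rr G x w z) fun z hz => by
      rw [cn z hz, la_rr h (rr_mem hw) hz]] at a
    have b := sum_split x (fun z => ψ z * rr G x w z) fun a ha => by rw [pψ.adj x1 ha]; ring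
    rw [pψ.ip h x1 hw, x1, w1, rr_left h (mem_nn.1 hw).1 (mem_nn.1 hw).2] at b
    omega
  have t0 := sp fun l _ _ => c l
  have t1 := sp fun l p _ => c l * p
  have t2 := sp fun l _ q => c l * q
  simp only [s0, s1 y hy y1, s1 y' hy' y2, cn y hy, cn y' hy', y1, y2, mul_one, mul_zero,
    sum_const_zero] at t0 t1 t2
  have n1 : 0 ≤ ∑ l ∈ cell (lines G x) (la G x) (rr G x y) (rr G x y') 1 0, c l :=
    sum_nonneg fun l _ => c0 l
  have n2 : 0 ≤ ∑ l ∈ cell (lines G x) (la G x) (rr G x y) (rr G x y') 0 0, c l :=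
    sum_nonneg fun l _ => c0 l
  have sD : ∑ l ∈ D, c l = 3 := by omega
  have ipU : ∑ z, ψ z * U z = 42 := by
    simp only [hU, mul_sub, sum_sub_distrib, mul_sum, mul_left_comm _ (2 : ℤ)]
    rw [sum_comm, sum_congr rfl (g := fun l => 16 * c l + 10) fun l hl => by
      obtain ⟨w, hw, rfl⟩ := mem_lines.1 (hDR hl)
      rw [pψ.ip h x1 hw, cn w hw], ← mul_sum, pψ.1.ip_gr, x1, sum_add_distrib, ← mul_sum, sD]
    simp [cD]
  refine eq_of_ip pψ.sq pχ.sq ?_
  simp only [U2, mul_left_comm _ (2 : ℤ), ← mul_sum] at ipU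
  omega

variable (G) in
/-- The points: 21-cocliques. -/
abbrev PtS : Type _ := {C : Finset V // Pt G fun z => if z ∈ C then 1 else 0}

noncomputable instance : Fintype (PtS G) := by
  classical
  exact Subtype.fintype _

noncomputable instance : DecidableEq (PtS G) := Classical.decEq _

variable (G) in
/-- The block of a vertex. -/
noncomputable def blk (x : V) : Finset (PtS G) := univ.filter fun C => x ∈ C.1

theorem mem_blk {x : V} {C : PtS G} : C ∈ blk G x ↔ x ∈ C.1 := by simp [blk]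

theorem card_three (h : G.IsSRGWith 77 16 0 4) {x y y' : V} (hy : y ∈ nn G x) (hy' : y' ∈ nn G x)
    (e : rr G x y y' = 1) : ((blk G x ∩ blk G y).filter fun C => y' ∈ C.1).card = 1 := by
  obtain ⟨χ, ⟨p, h1, h2, h3⟩, hu⟩ := exists_pt h hy hy' e
  have f : (fun z => if z ∈ univ.filter (fun z => χ z = 1) then (1 : ℤ) else 0) = χ := by
    funext z
    rcases p.2 z with g | g <;> simp [g]
  refine card_eq_one.2 ⟨⟨univ.filter fun z => χ z = 1, by rw [f]; exact p⟩, ?_⟩
  ext C
  simp only [mem_filter, mem_inter, mem_blk, mem_singleton]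
  constructor
  · rintro ⟨⟨a, b⟩, c⟩
    have := hu _ ⟨C.2, by simp [a], by simp [b], by simp [c]⟩
    refine Subtype.ext ?_
    ext z
    simp [← this]
  · rintro rfl
    simp [h1, h2, h3]

theorem card_inter (h : G.IsSRGWith 77 16 0 4) {x y : V} (h1 : x ≠ y) (h2 : ¬ G.Adj x y) :
    (blk G x ∩ blk G y).card = 2 := by
  have hy : y ∈ nn G x := mem_nn.2 ⟨h1, h2⟩
  set S := univ.filter fun z => rr G x y z = 1 with hS
  have a : ∑ z ∈ S, ((blk G x ∩ blk G y).filter fun C => z ∈ C.1).card = 32 := by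
    rw [sum_congr rfl (g := fun _ => 1) fun z hz => by
      have hz' : rr G x y z = 1 := (mem_filter.1 hz).2
      refine card_three h hy (mem_nn.2 ⟨?_, fun e => ?_⟩) hz'
      · rintro rfl
        rw [rr_left h h1 h2] at hz'; norm_num at hz'
      · rw [rr_adj h h1 h2 e] at hz'; norm_num at hz']
    simp [hS, card_one h h1 h2]
  simp only [card_filter] at a
  rw [sum_comm, sum_congr rfl (g := fun _ => 16) fun C hC => ?_] at a
  · simp only [sum_const, smul_eq_mul] at a
    omega
  obtain ⟨cx, cy⟩ := mem_inter.1 hC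
  rw [mem_blk] at cx cy
  have p := C.2
  have x1 : (fun z => if z ∈ C.1 then (1 : ℤ) else 0) x = 1 := by simp [cx]
  have b := p.ip h x1 hy
  have c : ∀ z, (if z ∈ C.1 then (1 : ℤ) else 0) * rr G x y z =
      2 * (if rr G x y z = 2 then 1 else 0) +
        if rr G x y z = 1 then (if z ∈ C.1 then 1 else 0) else 0 := by
    intro z
    rcases rr_range h h1 h2 z with e | e | e
    · simp [e]
    · simp [e]
    · have : z ∈ C.1 := by
        by_cases hz : x = z
        · exact hz ▸ cx
        obtain ⟨h3, h4⟩ := rr_line h h1 h2 hz e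
        have := p.cls h x1 hy (mem_nn.2 ⟨hz, h3⟩) h4
        simp only [cy, if_true] at this
        by_contra hc
        simp [hc] at this
      simp [e, this]
  have d := card_two h h1 h2
  rw [card_filter] at d
  have d' : ∑ z, (if rr G x y z = 2 then (1 : ℤ) else 0) = 5 := by exact_mod_cast d
  simp only [c, sum_add_distrib, ← mul_sum, d', cy, if_true] at b
  rw [← sum_filter] at b
  have : ∑ z ∈ S, (if z ∈ C.1 then (1 : ℤ) else 0) = 16 := by rw [hS]; omega
  exact_mod_cast this

theorem disj {x y : V} (h2 : G.Adj x y) : Disjoint (blk G x) (blk G y) := by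
  refine disjoint_left.2 fun C cx cy => ?_
  rw [mem_blk] at cx cy
  have := C.2.adj (x := x) (by simp [cx]) h2
  simp [cy] at this

theorem card_pt (C : PtS G) : C.1.card = 21 := by
  have := C.2.1.1
  simp only [sum_ite_mem, univ_inter, sum_const, nsmul_eq_mul, mul_one] at this
  exact_mod_cast this

theorem card_blk (h : G.IsSRGWith 77 16 0 4) (x : V) : (blk G x).card = 6 := by
  have a : ∑ y ∈ nn G x, ((blk G x).filter fun C => y ∈ C.1).card = 120 := by
    rw [sum_congr rfl (g := fun _ => 2) fun y hy => by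
      rw [← card_inter h (mem_nn.1 hy).1 (mem_nn.1 hy).2]
      congr 1
      ext C
      simp [mem_blk]]
    simp [card_nn h]
  simp only [card_filter] at a
  rw [sum_comm, sum_congr rfl (g := fun _ => 20) fun C hC => ?_] at a
  · simp only [sum_const, smul_eq_mul] at a
    omega
  rw [mem_blk] at hC
  have b := sum_split x (fun z => if z ∈ C.1 then (1 : ℤ) else 0) fun a ha =>
    C.2.adj (x := x) (by simp [hC]) ha
  rw [C.2.1.1] at b
  simp only [hC, if_true] at b
  have : ∑ z ∈ nn G x, (if z ∈ C.1 then (1 : ℤ) else 0) = 20 := by omega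
  exact_mod_cast this

theorem card_PtS (h : G.IsSRGWith 77 16 0 4) : Fintype.card (PtS G) = 22 := by
  have a : ∑ x, (blk G x).card = 462 := by simp [card_blk h, h.card]
  simp only [blk, card_filter] at a
  rw [sum_comm, sum_congr rfl (g := fun _ => 21) fun C _ => by
    rw [← card_filter, filter_mem_eq_inter, univ_inter, card_pt]] at a
  simp only [sum_const, smul_eq_mul, card_univ] at a
  omega

theorem inter_le (h : G.IsSRGWith 77 16 0 4) {x y : V} (h1 : x ≠ y) :
    (blk G x ∩ blk G y).card ≤ 2 := by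
  by_cases h2 : G.Adj x y
  · rw [disjoint_iff_inter_eq_empty.1 (disj h2)]; simp
  · exact (card_inter h h1 h2).le

theorem blk_inj (h : G.IsSRGWith 77 16 0 4) : Function.Injective (blk G) := by
  intro x y e
  by_contra h1
  have := inter_le h h1
  rw [← e, inter_self, card_blk h] at this
  omega

theorem adj_iff (h : G.IsSRGWith 77 16 0 4) (x y : V) :
    G.Adj x y ↔ Disjoint (blk G x) (blk G y) := by
  refine ⟨disj, fun hd => ?_⟩
  by_contra h2
  rw [disjoint_iff_inter_eq_empty] at hd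
  by_cases h1 : x = y
  · have := card_blk h x
    rw [← h1, inter_self] at hd
    rw [hd] at this
    simp at this
  · have := card_inter h h1 h2
    rw [hd] at this
    simp at this

theorem steiner (h : G.IsSRGWith 77 16 0 4) : IsSteinerSystem 3 6 (Set.range (blk G)) := by
  refine ⟨?_, ?_⟩
  · rintro b ⟨y, rfl⟩
    exact card_blk h y
  have hle : ∀ T ∈ powersetCard 3 (univ : Finset (PtS G)),
      (univ.filter fun y => T ⊆ blk G y).card ≤ 1 := by
    intro T hT
    rw [card_le_one]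
    intro y hy z hz
    simp only [mem_filter, mem_univ, true_and] at hy hz
    by_contra hyz
    have h1 := inter_le h hyz
    have h2 := card_le_card (subset_inter hy hz)
    rw [(mem_powersetCard.1 hT).2] at h2
    omega
  have hsum : ∑ T ∈ powersetCard 3 (univ : Finset (PtS G)),
      (univ.filter fun y => T ⊆ blk G y).card =
      ∑ T ∈ powersetCard 3 (univ : Finset (PtS G)), 1 := by
    simp only [card_filter]
    rw [sum_comm]
    have : ∀ y ∈ (univ : Finset V), (∑ T ∈ powersetCard 3 (univ : Finset (PtS G)),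
        if T ⊆ blk G y then 1 else 0) = 20 := by
      intro y _
      rw [← card_filter]
      have : (powersetCard 3 (univ : Finset (PtS G))).filter
          (fun T => T ⊆ blk G y) = powersetCard 3 (blk G y) := by
        ext T
        simp [mem_powersetCard, and_comm]
      rw [this, card_powersetCard, card_blk h]
      rfl
    rw [sum_congr rfl this, sum_const, sum_const, card_powersetCard, card_univ, card_univ,
      card_PtS h, h.card]
    rfl
  intro T hT
  have h1 := (sum_eq_sum_iff_of_le hle).1 hsum T (mem_powersetCard.2 ⟨subset_univ _, hT⟩)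
  obtain ⟨y, hy⟩ := card_eq_one.1 h1
  have hy' : y ∈ univ.filter fun y => T ⊆ blk G y := hy ▸ mem_singleton_self y
  simp only [mem_filter, mem_univ, true_and] at hy'
  refine ⟨blk G y, ⟨⟨y, rfl⟩, hy'⟩, ?_⟩
  rintro b ⟨⟨z, rfl⟩, h4⟩
  have : z ∈ univ.filter fun y => T ⊆ blk G y := by
    simp only [mem_filter, mem_univ, true_and]
    exact h4
  rw [hy, mem_singleton] at this
  rw [this]

theorem unique {W : Type*} [Fintype W] [DecidableEq W] {H : SimpleGraph W} [DecidableRel H.Adj]
    (hG : G.IsSRGWith 77 16 0 4) (hH : H.IsSRGWith 77 16 0 4) : Nonempty (G ≃g H) := by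
  obtain ⟨e, he⟩ := Spor.steiner3622_iso (card_PtS hG) (card_PtS hH) (steiner hG) (steiner hH)
  have : ∀ x, ∃ y, blk H y = (blk G x).image e := fun x => by
    have : (blk G x).image e ∈ Set.range (blk H) := he ▸ ⟨_, ⟨x, rfl⟩, rfl⟩
    exact this
  choose f hf using this
  have inj : Function.Injective f := fun x y g => by
    have := hf x
    rw [g, hf y] at this
    exact blk_inj hG (image_injective e.injective this).symm
  have bij : Function.Bijective f :=
    (Fintype.bijective_iff_injective_and_card f).2 ⟨inj, by rw [hG.card, hH.card]⟩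
  refine ⟨⟨Equiv.ofBijective f bij, ?_⟩⟩
  intro x y
  simp only [Equiv.ofBijective_apply]
  rw [adj_iff hH, adj_iff hG, hf, hf, disjoint_image e.injective]

end Cfsg.Agent.S77
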