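import Mathlib
import Cfsg.Agent.Spor.SteinerBasic

/-!
# Steiner systems: blocks meeting a given block in a prescribed subset
-/

set_option autoImplicit false

namespace Cfsg.Agent.Spor

open Finset

variable {α : Type*} [Fintype α] [DecidableEq α]

/-- The blocks meeting `b` exactly in `s ⊆ b` are counted by `nMeet B s (b \ s) 0`. -/
theorem ncard_inter_eq_nMeet (B : Set (Finset α)) {b s : Finset α} (hs : s ⊆ b) :
    {c : Finset α | c ∈ B ∧ b ∩ c = s}.ncard = nMeet B s (b \ s) 0 := by
  classical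
  rw [ncard_sep_eq, nMeet]
  congr 1
  apply filter_congr
  intro c _
  rw [card_eq_zero]
  constructor
  · rintro rfl
    refine ⟨inter_subset_right, ?_⟩
    ext x; simp only [mem_inter, mem_sdiff, notMem_empty]; tauto
  · rintro ⟨h1, h2⟩
    ext x
    have h3 := Finset.ext_iff.1 h2 x
    simp only [mem_inter, mem_sdiff, notMem_empty] at h3 ⊢
    exact ⟨fun h => by by_contra hx; exact h3.1 ⟨h.2, h.1, hx⟩, fun h => ⟨hs h, h1 h⟩⟩

theorem card_inter_eq_add {b s c : Finset α} (hs : s ⊆ b) (hc : s ⊆ c) :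
    (c ∩ b).card = s.card + (c ∩ (b \ s)).card := by
  rw [← card_union_of_disjoint]
  · congr 1
    ext x
    simp only [mem_inter, mem_union, mem_sdiff]
    have := @hs x
    have := @hc x
    tauto
  · rw [disjoint_left]
    intro x hx
    simp [hx]

theorem nMeet_sdiff_self {t k : ℕ} {B : Set (Finset α)} (hB : IsSteinerSystem t k B)
    {b s : Finset α} (hb : b ∈ B) (hs : s ⊆ b) : nMeet B s (b \ s) (k - s.card) = 1 := by
  rw [nMeet, card_eq_one]
  refine ⟨b, ?_⟩
  have hk := hB.1 b hb
  ext c
  simp only [mem_filter, mem_blocks, mem_singleton]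
  constructor
  · rintro ⟨hc, h1, h2⟩
    have h3 := card_inter_eq_add hs h1
    have h4 := card_le_card hs
    have h5 : c ∩ b = b := eq_of_subset_of_card_le inter_subset_right (by omega)
    have h6 : b ⊆ c := by rw [← h5]; exact inter_subset_left
    exact (eq_of_subset_of_card_le h6 (by rw [hB.1 c hc, hk])).symm
  · rintro rfl
    refine ⟨hb, hs, ?_⟩
    rw [inter_eq_right.2 sdiff_subset, card_sdiff_of_subset hs, hk]

theorem nMeet_sdiff_of_ge {t k : ℕ} {B : Set (Finset α)} (hB : IsSteinerSystem t k B)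
    {b s : Finset α} (hb : b ∈ B) (hs : s ⊆ b) {i : ℕ} (hi : t ≤ s.card + i)
    (hik : s.card + i ≠ k) : nMeet B s (b \ s) i = 0 := by
  rw [nMeet_eq_zero]
  intro c hc h1 h2
  have h3 := card_inter_eq_add hs h1
  by_cases hcb : c = b
  · subst hcb
    rw [inter_self, hB.1 c hc] at h3
    omega
  · have := steiner_inter_lt hB hc hb hcb
    omega

end Cfsg.Agent.Spor
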