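import Cfsg.Agent.Spor.Co0Order

/-! The monomial group as the stabiliser of the standard cross; shape counts. -/

set_option autoImplicit false

namespace Cfsg.Agent.Spor.Leech

open Cfsg Finset

attribute [local irreducible] box

theorem mem_stdCross_iff {v : leechLattice} :
    (v : GolayPt → ℤ) ∈ stdCross ↔ ∃ j, v = e8 j ∨ v = -e8 j := by
  constructor
  · rintro ⟨i, s, rfl | rfl, h⟩
    · exact ⟨i, Or.inl (Subtype.ext h)⟩
    · exact ⟨i, Or.inr (Subtype.ext (by rw [h, AddSubgroup.coe_neg, coe_e8, Pi.single_neg]))⟩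
  · rintro ⟨i, rfl | rfl⟩
    · exact ⟨i, 8, Or.inl rfl, rfl⟩
    · exact ⟨i, -8, Or.inr rfl, by rw [AddSubgroup.coe_neg, coe_e8, Pi.single_neg]⟩

theorem mem_monoSub_iff_cross {g : Co0} : g ∈ monoSub ↔ ∀ v : leechLattice,
    (v : GolayPt → ℤ) ∈ stdCross → ((g • v : leechLattice) : GolayPt → ℤ) ∈ stdCross := by
  simp only [mem_stdCross_iff]
  refine ⟨?_, fun h i => h _ ⟨i, Or.inl rfl⟩⟩
  rintro h v ⟨i, rfl | rfl⟩
  · exact h i
  · obtain ⟨j, e | e⟩ := h i
    · exact ⟨j, Or.inr (by rw [smul_neg, e])⟩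
    · exact ⟨j, Or.inl (by rw [smul_neg, e, neg_neg])⟩

/-- Lattice vectors of norm `n` with exactly `m` coordinates satisfying `p`. -/
theorem count_shape (p : ℤ → Prop) [DecidablePred p] (n m : ℕ) (hn : n ≤ 80) :
    {x | (x ∈ leechLattice ∧ sqNorm x = n) ∧ (univ.filter fun i => p (x i)).card = m}.ncard =
      {x | x ∈ box ∧ x ∈ leechLattice ∧
        ∑ i, ((x i).natAbs ^ 2 + if p (x i) then 2000 else 0) = n + 2000 * m}.ncard := by
  refine congrArg Set.ncard ?_; ext x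
  simp only [Set.mem_setOf_eq]
  have e : ∑ i, ((x i).natAbs ^ 2 + if p (x i) then 2000 else 0) =
      ∑ i, (x i).natAbs ^ 2 + 2000 * (univ.filter fun i => p (x i)).card := by
    rw [sum_add_distrib, ← sum_filter, sum_const, smul_eq_mul, mul_comm]
  rw [e, sqNorm_eq_natAbs]
  refine ⟨fun h => ?_, fun h => ?_⟩
  · have a := h.1.2
    have b : sqNorm x ≤ 80 := by rw [sqNorm_eq_natAbs, a]; exact_mod_cast hn
    exact ⟨mem_box_of_sqNorm b, h.1.1, by rw [h.2, Nat.cast_injective a]⟩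
  have : ∑ i, (x i).natAbs ^ 2 ≤ 1536 := by
    refine (sum_le_card_nsmul _ _ 64 fun i _ => ?_).trans (by rw [card_univ, card_golayPt]; norm_num)
    have := mem_box.1 h.1 i
    have : (x i).natAbs ≤ 8 := by omega
    exact Nat.pow_le_pow_left this 2
  have a := h.2.2
  generalize ∑ i, (x i).natAbs ^ 2 = s at a this ⊢
  exact ⟨⟨h.2.1, by omega⟩, by omega⟩

theorem ncard_le_split {X : Type*} {P : X → Prop} (hP : {x | P x}.Finite) (f : X → ℕ) (j : ℕ) :
    {x | P x ∧ j ≤ f x}.ncard = {x | P x ∧ j + 1 ≤ f x}.ncard + {x | P x ∧ f x = j}.ncard := by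
  rw [← Set.ncard_union_eq (Set.disjoint_left.2 fun x a b => by have := a.2; have := b.2; omega)
    (hP.subset fun x h => h.1) (hP.subset fun x h => h.1)]
  congr 1; ext x
  simp only [Set.mem_setOf_eq, Set.mem_union]
  exact ⟨fun h => by
    rcases h.2.eq_or_lt with e | e
    · exact Or.inr ⟨h.1, e.symm⟩
    · exact Or.inl ⟨h.1, e⟩, by rintro (h | h) <;> exact ⟨h.1, by have := h.2; omega⟩⟩

end Cfsg.Agent.Spor.Leech
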