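import Cfsg.Agent.Spor.Monomial
import Cfsg.Agent.Comp.MaskSearch
import Cfsg.Agent.Comp.Basic

/-!
The ternary code of length 12: its 729 words, weights and hexads.
-/

set_option autoImplicit false

namespace Cfsg.Agent.Spor.Tern

open Cfsg Cfsg.Agent.Comp
open scoped Pointwise

theorem mem_iff (x : ArrayPt → ZMod 3) : x ∈ ternaryGolayCode ↔ ∃ s : ZMod 3,
    (∀ i : Fin 4, x (i, 0) + x (i, 1) + x (i, 2) = -s) ∧
      ∀ a b : ZMod 3, x (0, b) + x (1, a) + x (2, a + b) + x (3, a + b * 2) = s := by
  have e : ∀ f : ZMod 3 → ZMod 3, ∑ r, f r = f 0 + f 1 + f 2 := fun f => Fin.sum_univ_three f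
  refine exists_congr fun s => and_congr (by simp only [e]) ⟨fun h a b => ?_, fun h t ht => ?_⟩
  · simpa [Fin.sum_univ_four] using h _ (Submodule.mem_span_pair.2 ⟨a, b, rfl⟩)
  · obtain ⟨a, b, rfl⟩ := Submodule.mem_span_pair.1 ht
    simpa [Fin.sum_univ_four] using h a b

/-- The positions numbered `0, …, 11`. -/
def aeq : ArrayPt ≃ Fin 12 := finProdFinEquiv (m := 4) (n := 3)

/-- The number of a position. -/
def aix (p : ArrayPt) : ℕ := aeq p

/-- The set of positions with a given mask. -/
def aset (m : ℕ) : Finset ArrayPt := (Mask.ofMask 12 m).map aeq.symm.toEmbedding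

theorem mem_aset {m : ℕ} {p : ArrayPt} : p ∈ aset m ↔ m.testBit (aix p) = true := by
  rw [aset, Finset.mem_map_equiv, Equiv.symm_symm, Mask.mem_ofMask]; rfl

theorem card_aset (m : ℕ) : (aset m).card = Mask.pc 12 m := by
  rw [aset, Finset.card_map, Mask.card_ofMask]

theorem exists_aset (s : Finset ArrayPt) : ∃ m < 4096, aset m = s := by
  obtain ⟨m, hm, e⟩ := Mask.exists_ofMask (s.map aeq.toEmbedding)
  exact ⟨m, hm, by rw [aset, e, Finset.map_map]; simp⟩

theorem aset_inj {a b : ℕ} (ha : a < 4096) (hb : b < 4096) (h : aset a = aset b) : a = b :=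
  Mask.ofMask_inj (n := 12) ha hb (Finset.map_injective _ h)

theorem aset_land (a b : ℕ) : aset (Nat.land a b) = aset a ∩ aset b := by
  ext p; simp [mem_aset]

/-- A basis of the code, two bits per entry. -/
def rows : List ℕ := [9765889, 9077764, 5784592, 1673280, 9586944, 11096064]

/-- The `k`-th entry of the `n`-th word. -/
noncomputable def tw (n k : ℕ) : ℕ :=
  Nat.mod (sumLT 6 fun j => Nat.mul (Nat.mod (Nat.div n (Nat.pow 3 j)) 3)
    (dig 2 3 (getL 0 rows j) k)) 3

/-- The `j`-th basis word. -/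
noncomputable def trow (j : ℕ) : ArrayPt → ZMod 3 := fun p => (dig 2 3 (getL 0 rows j) (aix p) : ℕ)

/-- The `n`-th word. -/
noncomputable def tword (n : ℕ) : ArrayPt → ZMod 3 := fun p => (tw n (aix p) : ℕ)

theorem tword_eq (n : ℕ) :
    tword n = ∑ j ∈ Finset.range 6, ((n / 3 ^ j % 3 : ℕ) : ZMod 3) • trow j := by
  funext p
  have : tw n (aix p) = (sumLT 6 fun j => (n / 3 ^ j % 3) * dig 2 3 (getL 0 rows j) (aix p)) % 3 :=
    rfl
  rw [tword, this, ZMod.natCast_mod, sumLT_eq, Nat.cast_sum, Finset.sum_apply]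
  exact Finset.sum_congr rfl fun j _ => by rw [Nat.cast_mul]; rfl

theorem trow_mem {j : ℕ} (hj : j < 6) : trow j ∈ ternaryGolayCode := by
  rw [mem_iff]; revert j; decide +kernel

theorem tword_mem (n : ℕ) : tword n ∈ ternaryGolayCode := by
  rw [tword_eq]
  exact Submodule.sum_mem _ fun j hj => Submodule.smul_mem _ _ (trow_mem (Finset.mem_range.1 hj))

theorem eq_zero_of_info {x : ArrayPt → ZMod 3} (hx : x ∈ ternaryGolayCode) (h0 : x (0, 0) = 0)
    (h1 : x (0, 1) = 0) (h2 : x (0, 2) = 0) (h3 : x (1, 0) = 0) (h4 : x (1, 1) = 0)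
    (h6 : x (2, 0) = 0) : x = 0 := by
  obtain ⟨s, hc, ht⟩ := (mem_iff x).1 hx
  have z : (3 : ZMod 3) = 0 := rfl
  have hs : s = 0 := by linear_combination hc 0 - h0 - h1 - h2
  have e0 : x (0, 0) + x (1, 0) + x (2, 0) + x (3, 0) = s := ht 0 0
  have e1 : x (0, 1) + x (1, 0) + x (2, 1) + x (3, 2) = s := ht 0 1
  have e2 : x (0, 0) + x (1, 1) + x (2, 1) + x (3, 1) = s := ht 1 0
  have h5 : x (1, 2) = 0 := by linear_combination hc 1 - h3 - h4 - hs
  have h9 : x (3, 0) = 0 := by linear_combination e0 - h0 - h3 - h6 + hs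
  have h7 : x (2, 1) = 0 := by
    linear_combination 2 * (e1 + e2 - hc 3 - h1 - h3 - h0 - h4 + h9 + 3 * hs) - x (2, 1) * z
  have h8 : x (2, 2) = 0 := by linear_combination hc 2 - h6 - h7 - hs
  have h10 : x (3, 1) = 0 := by linear_combination e2 - h0 - h4 - h7 + hs
  have h11 : x (3, 2) = 0 := by linear_combination e1 - h1 - h3 - h7 + hs
  funext ⟨i, r⟩
  fin_cases i <;> fin_cases r <;> assumption

theorem exists_tword {x : ArrayPt → ZMod 3} (hx : x ∈ ternaryGolayCode) :
    ∃ n < 729, tword n = x := by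
  have : ∀ a b c d e f : ZMod 3, force (a.val + 3 * b.val + 9 * c.val + 27 * d.val + 81 * e.val +
      243 * f.val) (fun n => decide (n < 729 ∧ tword n (0, 0) = a ∧ tword n (0, 1) = b ∧
      tword n (0, 2) = c ∧ tword n (1, 0) = d ∧ tword n (1, 1) = e ∧ tword n (2, 0) = f)) = true := by
    decide +kernel
  simp only [force_eq, decide_eq_true_eq] at this
  obtain ⟨h, h0, h1, h2, h3, h4, h6⟩ :=
    this (x (0, 0)) (x (0, 1)) (x (0, 2)) (x (1, 0)) (x (1, 1)) (x (2, 0))
  exact ⟨_, h, sub_eq_zero.1 (eq_zero_of_info (ternaryGolayCode.sub_mem (tword_mem _) hx)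
    (sub_eq_zero.2 h0) (sub_eq_zero.2 h1) (sub_eq_zero.2 h2) (sub_eq_zero.2 h3) (sub_eq_zero.2 h4)
    (sub_eq_zero.2 h6))⟩

theorem tword_inj {n m : ℕ} (hn : n < 729) (hm : m < 729) (h : tword n = tword m) : n = m := by
  have : allB 729 (fun n => Nat.beq ((tword n (0, 0)).val + 3 * (tword n (0, 1)).val +
      9 * (tword n (0, 2)).val + 27 * (tword n (1, 0)).val + 81 * (tword n (1, 1)).val +
      243 * (tword n (2, 0)).val) n) = true := by decide +kernel
  simp only [allB_iff, beq_iff] at this
  rw [← this n hn, h, this m hm]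

theorem ncard_words (P : (ArrayPt → ZMod 3) → Prop) (Q : ℕ → Bool)
    (h : ∀ n < 729, P (tword n) ↔ Q n = true) :
    {x | x ∈ ternaryGolayCode ∧ P x}.ncard = cntPow 10 fun n => and' (Nat.blt n 729) (Q n) := by
  rw [cntPow_eq, ← Set.ncard_coe_finset]
  symm
  apply Set.ncard_congr (fun n _ => tword n)
  · intro n hn
    simp only [Finset.coe_filter, Finset.mem_range, Set.mem_setOf_eq, and'_eq_true, blt_iff] at hn
    exact ⟨tword_mem n, (h n hn.2.1).2 hn.2.2⟩
  · intro n m hn hm
    simp only [Finset.coe_filter, Finset.mem_range, Set.mem_setOf_eq, and'_eq_true, blt_iff]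
      at hn hm
    exact tword_inj hn.2.1 hm.2.1
  · rintro x ⟨hx, hP⟩
    obtain ⟨n, hn, rfl⟩ := exists_tword hx
    refine ⟨n, ?_, rfl⟩
    simp only [Finset.coe_filter, Finset.mem_range, Set.mem_setOf_eq, and'_eq_true, blt_iff]
    exact ⟨by omega, hn, (h n hn).1 hP⟩

/-- The mask of the support of the `n`-th word. -/
noncomputable def smask (n : ℕ) : ℕ :=
  sumLT 12 fun k => ite' (Nat.beq (tw n k) 0) 0 (Nat.shiftLeft 1 k)

theorem support_tword {n : ℕ} (hn : n < 729) : ternarySupport (tword n) = aset (smask n) := by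
  have : allB 729 (fun n => force (smask n) fun m => allLT 12 fun k =>
      Nat.beq (ite' (tb m k) 1 0) (ite' (Nat.beq (Nat.mod (tw n k) 3) 0) 0 1)) = true := by
    decide +kernel
  simp only [allB_iff, force_eq, allLT_iff, beq_iff, ite'_eq, tb_eq] at this
  have h := this n hn
  ext p
  have h1 := h (aix p) (aeq p).2
  rw [mem_aset, ternarySupport, Finset.mem_filter, tword, Ne, ZMod.natCast_eq_zero_iff,
    Nat.dvd_iff_mod_eq_zero]
  change _ = if tw n (aix p) % 3 = 0 then 0 else 1 at h1
  split_ifs at h1 with h2 h3 h3 <;> simp [*]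

theorem card_support {x : ArrayPt → ZMod 3} (hx : x ∈ ternaryGolayCode) (h0 : x ≠ 0) :
    (ternarySupport x).card = 6 ∨ (ternarySupport x).card = 9 ∨ (ternarySupport x).card = 12 := by
  have : allB 729 (fun n => force (Mask.pc 12 (smask n)) fun w => or' (Nat.beq w 0)
      (or' (Nat.beq w 6) (or' (Nat.beq w 9) (Nat.beq w 12)))) = true := by decide +kernel
  simp only [allB_iff, force_eq, or'_eq_true, beq_iff] at this
  obtain ⟨n, hn, rfl⟩ := exists_tword hx
  have h := this n hn
  rw [← card_aset, ← support_tword hn] at h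
  refine h.resolve_left fun h => h0 (funext fun p => ?_)
  simpa [ternarySupport] using Finset.eq_empty_iff_forall_notMem.1 (Finset.card_eq_zero.1 h) p

theorem ncard_weight (k : ℕ) :
    {x | x ∈ ternaryGolayCode ∧ (ternarySupport x).card = k}.ncard =
      cntPow 10 fun n => and' (Nat.blt n 729) (Nat.beq (Mask.pc 12 (smask n)) k) :=
  ncard_words _ _ fun n hn => by rw [support_tword hn, card_aset, beq_iff]

/-- The masks of the 132 hexads. -/
def hexL : List ℕ := [63, 222, 237, 243, 347, 366, 373, 413, 427, 438, 455, 504, 591, 630, 633, 667, 679, 700, 725, 746, 791, 813, 826, 860, 867, 910, 945, 969, 978, 996, 1117, 1127, 1146, 1175, 1198, 1209, 1227, 1268, 1295, 1331, 1340, 1366, 1385, 1434, 1445, 1484, 1489, 1506, 1566, 1579, 1589, 1619, 1644, 1677, 1714, 1734, 1752, 1761, 1817, 1830, 1861, 1866, 1904, 1923, 1940, 1960, 2135, 2155, 2172, 2191, 2229, 2234, 2265, 2278, 2334, 2343, 2361, 2381, 2418, 2451, 2476, 2506, 2516, 2529, 2589, 2606, 2611, 2650, 2661, 2710, 2729, 2755, 2764, 2800, 2827,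 2868, 2886, 2897, 2920, 2949, 2968, 2978, 3099, 3117, 3126, 3150, 3185, 3228, 3235, 3269, 3282, 3304, 3349, 3370, 3395, 3416, 3428, 3462, 3465, 3504, 3591, 3640, 3657, 3668, 3682, 3722, 3729, 3748, 3852, 3858, 3873, 4032]

theorem hexL_lt : ∀ m ∈ hexL, m < 4096 ∧ Mask.pc 12 m = 6 := by decide +kernel

/-- The supports of the words of weight six. -/
abbrev hexads : Set (Finset ArrayPt) :=
  {h | ∃ x ∈ ternaryGolayCode, ternarySupport x = h ∧ h.card = 6}

theorem hexads_eq : hexads = aset '' {m | m ∈ hexL} := by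
  ext h
  constructor
  · rintro ⟨x, hx, rfl, h6⟩
    have : allB 729 (fun n => force (smask n) fun m => or' (not' (Nat.beq (Mask.pc 12 m) 6))
      (anyL hexL (Nat.beq m))) = true := by decide +kernel
    simp only [allB_iff, force_eq, or'_eq_true, not'_eq_true, beq_iff, anyL_iff] at this
    obtain ⟨n, hn, rfl⟩ := exists_tword hx
    rw [support_tword hn] at h6 ⊢
    obtain ⟨m, hm, e⟩ := (this n hn).resolve_left (not_not.2 (by rwa [← card_aset]))
    exact ⟨m, hm, by rw [e]⟩
  · rintro ⟨m, hm, rfl⟩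
    have h1 : List.map smask [134, 393, 289, 410, 439, 318, 335, 154, 32, 102, 269, 459, 284, 429, 379, 112, 17, 117, 415, 276, 97, 37, 141, 369, 247, 51, 83, 299, 327, 252, 479, 259, 354, 95, 39, 137, 301, 342, 49, 85, 144, 417, 272, 114, 10, 279, 325, 249, 156, 34, 100, 332, 306, 47, 87, 264, 432, 245, 110, 12, 262, 303, 405, 5, 90, 27, 346, 305, 441, 43, 91, 138, 353, 255, 120, 14, 109, 307, 330, 89, 45, 273, 423, 244, 146, 48, 86, 462, 263, 105, 29, 250, 315, 324, 35, 99, 258, 407, 270, 11, 135, 3, 142, 38, 96, 294, 406, 126, 4, 254, 411, 297, 101, 33, 248, 378, 261, 15, 28, 81, 13, 108, 271, 333, 246, 30, 82, 9, 36, 84, 1, 243] = hexL := by decide +kernel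
    have h2 : ∀ n ∈ [134, 393, 289, 410, 439, 318, 335, 154, 32, 102, 269, 459, 284, 429, 379, 112, 17, 117, 415, 276, 97, 37, 141, 369, 247, 51, 83, 299, 327, 252, 479, 259, 354, 95, 39, 137, 301, 342, 49, 85, 144, 417, 272, 114, 10, 279, 325, 249, 156, 34, 100, 332, 306, 47, 87, 264, 432, 245, 110, 12, 262, 303, 405, 5, 90, 27, 346, 305, 441, 43, 91, 138, 353, 255, 120, 14, 109, 307, 330, 89, 45, 273, 423, 244, 146, 48, 86, 462, 263, 105, 29, 250, 315, 324, 35, 99, 258, 407, 270, 11, 135, 3, 142, 38, 96, 294, 406, 126, 4, 254, 411, 297, 101, 33, 248, 378, 261, 15, 28, 81, 13, 108, 271, 333, 246, 30, 82, 9, 36, 84, 1, 243], n < 729 := by decide +kernel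
    have hm' := hm
    rw [Set.mem_setOf_eq, ← h1] at hm'
    obtain ⟨n, hn, rfl⟩ := List.mem_map.1 hm'
    exact ⟨tword n, tword_mem n, support_tword (h2 n hn), by rw [card_aset, (hexL_lt _ hm).2]⟩

theorem ncard_hexads : hexads.ncard = 132 := by
  have : Set.InjOn aset {m | m ∈ hexL} := fun a ha b hb => aset_inj (hexL_lt a ha).1 (hexL_lt b hb).1
  rw [hexads_eq, this.ncard_image, ← List.coe_toFinset, Set.ncard_coe_finset,
    List.toFinset_card_of_nodup (by decide +kernel)]
  rfl

theorem hexads_steiner : IsSteinerSystem 5 6 hexads := by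
  refine ⟨fun b hb => hb.choose_spec.2.2, fun s hs => ?_⟩
  have h1 : allB 4096 (fun s => or' (not' (Nat.beq (Mask.pc 12 s) 5))
      (anyL hexL fun m => Nat.beq (Nat.land s m) s)) = true := by decide +kernel
  have h2 : allL hexL (fun m => allL hexL fun m' => or' (Nat.beq m m')
      (Nat.ble (Mask.pc 12 (Nat.land m m')) 4)) = true := by decide +kernel
  simp only [allB_iff, allL_iff, or'_eq_true, not'_eq_true, beq_iff, anyL_iff, ble_iff] at h1 h2
  rw [hexads_eq]
  obtain ⟨a, ha, rfl⟩ := exists_aset s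
  obtain ⟨m, hm, e⟩ := (h1 a ha).resolve_left (not_not.2 (by rwa [← card_aset]))
  have hs1 : aset a ⊆ aset m := by rw [← e, aset_land]; exact Finset.inter_subset_right
  refine ⟨aset m, ⟨⟨m, hm, rfl⟩, hs1⟩, ?_⟩
  rintro _ ⟨⟨m', hm', rfl⟩, hs2⟩
  rcases h2 m' hm' m hm with h | h
  · rw [h]
  · rw [← card_aset, aset_land] at h
    have := Finset.card_le_card (Finset.subset_inter hs2 hs1)
    omega

theorem sub_eq_zero_of_lt {x : ArrayPt → ZMod 3} (hx : x ∈ ternaryGolayCode)
    {h : Finset ArrayPt} (h6 : h.card = 6) {p : ArrayPt} (hp : p ∈ h) (h1 : x p = 0)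
    (h2 : ∀ q ∉ h, x q = 0) : x = 0 := by
  by_contra h0
  have h3 : ternarySupport x ⊆ h.erase p := fun q hq => by
    simp only [ternarySupport, Finset.mem_filter, Finset.mem_univ, true_and] at hq
    exact Finset.mem_erase.2 ⟨fun e => hq (e ▸ h1), by_contra fun e => hq (h2 q e)⟩
  have h4 := Finset.card_le_card h3
  rw [Finset.card_erase_of_mem hp, h6] at h4
  have := card_support hx h0
  omega

theorem diag_const (c : ArrayPt → (ZMod 3)ˣ)
    (h : ∀ x ∈ ternaryGolayCode, monomialMap 1 c x ∈ ternaryGolayCode) (p q : ArrayPt) :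
    c p = c q := by
  obtain ⟨s, hs, -, h5⟩ := Finset.exists_subsuperset_card_eq (n := 5)
    (Finset.subset_univ ({p, q} : Finset ArrayPt)) (Finset.card_le_two.trans (by norm_num))
    (by decide)
  obtain ⟨b, ⟨⟨x, hx, rfl, h6⟩, hb⟩, -⟩ := hexads_steiner.2 s h5
  have hp : p ∈ ternarySupport x := hb (hs (by simp))
  have hq : q ∈ ternarySupport x := hb (hs (by simp))
  have := sub_eq_zero_of_lt (ternaryGolayCode.sub_mem (h x hx)
    (ternaryGolayCode.smul_mem (c p : ZMod 3) hx)) h6 hp (by
      simp [monomialMap, Equiv.Perm.one_def]) fun r hr => by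
      have : x r = 0 := by simpa [ternarySupport] using hr
      simp [monomialMap, Equiv.Perm.one_def, this]
  have h1 := congrFun this q
  have h2 : x q ≠ 0 := by simpa [ternarySupport] using hq
  simp only [monomialMap, Equiv.Perm.one_def, Equiv.refl_symm, Equiv.refl_apply, Pi.sub_apply,
    Pi.smul_apply, smul_eq_mul, Pi.zero_apply, sub_eq_zero] at h1
  exact (Units.ext (mul_right_cancel₀ h2 h1)).symm

theorem support_monomialMap (σ : Equiv.Perm ArrayPt) (c : ArrayPt → (ZMod 3)ˣ)
    (x : ArrayPt → ZMod 3) : ternarySupport (monomialMap σ c x) = σ • ternarySupport x := by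
  ext p
  rw [← Finset.inv_smul_mem_iff]
  simp [ternarySupport, monomialMap, Equiv.Perm.smul_def, Equiv.Perm.inv_def]

/-- The permutation part of a coded monomial map. -/
noncomputable def permC (c : ℕ) (p : ArrayPt) : ArrayPt :=
  aeq.symm (Fin.ofNat 12 (dig 4 15 c (aix p)))

/-- The signs of a coded monomial map. -/
noncomputable def sgnC (c : ℕ) (p : ArrayPt) : ZMod 3 := (dig 2 3 (Nat.shiftRight c 48) (aix p) : ℕ)

/-- Transversals of a chain of point stabilisers. -/
def transv : List (List ℕ) := [[1574122272295539192336, 1574122182007357452801, 1574122238274868359426, 1649428086387954163971, 1649428031636180771076, 1649428070934375506181, 1649441596228173504774, 1649444882265861726471, 1649422351190303383816, 1649441527938442010889, 1649422330509027123466, 1649444933999241928971], [0, 1574122272295539192336, 1574122216028028285216, 1962675937523438723376, 1962675871682344984896, 1962675922069860065616, 1962662339653225619808, 2759708366225603240304, 2759685790177207460224, 1962662326535788372368,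 2759685861358486888864, 2759708327876154827184], [0, 0, 1574122272295539192336, 2834287957591341671184, 2834287925483273397264, 2834287991603706668304, 2834271053678323639824, 1888096237470029653776, 1888077169656483489808, 2834271086385586972944, 1888077120127119862288, 1888096221174147787536], [0, 0, 0, 1574122272295539192336, 1574122214996984414736, 1574122253736749519376, 1574127896236601336336, 3148239466099828290064, 3148242823193016107536, 1574127824897526960656, 3148242809804543992336, 3148239516613421019664], [0, 0, 0, 0, 1574122272295539192336, 1574122199531326353936, 1574127880573895979536, 3148239430029904654864, 3148242837619325022736, 1574127849839627153936, 3148242891215481745936, 3148239444473573749264]]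

/-- The check of one transversal element. -/
noncomputable def okC (c i : ℕ) (y : ArrayPt) : Bool :=
  and' (decide (∀ p q, permC c p = permC c q → p = q)) (and' (decide (∀ p, sgnC c p ≠ 0))
    (and' (allLT i fun j => decide (permC c (aeq.symm (Fin.ofNat 12 j)) = aeq.symm (Fin.ofNat 12 j)))
      (and' (decide (permC c (aeq.symm (Fin.ofNat 12 i)) = y)) (allLT 6 fun j =>
        @decide _ (decidable_of_iff _ (mem_iff fun p => sgnC c p * trow j (permC c p)).symm)))))

theorem multTrans_monoPerms :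
    MulAction.IsMultiplyPretransitive (monoPerms ternaryGolayCode) ArrayPt 5 := by
  have : ∀ i < 5, ∀ y : ArrayPt, force (getL 0 (getL [] transv i) (aix y)) (fun c =>
      or' (anyLT i fun j => decide (y = aeq.symm (Fin.ofNat 12 j))) (okC c i y)) = true := by
    decide +kernel
  simp only [force_eq, okC, or'_eq_true, and'_eq_true, anyLT_iff, allLT_iff,
    decide_eq_true_eq] at this
  refine multTrans_of_base _ 5 (fun j => aeq.symm (Fin.ofNat 12 j)) fun i hi y hy => ?_
  obtain ⟨h1, h2, h3, h4, h5⟩ := (this i hi y).resolve_left fun ⟨j, hj, e⟩ => hy j hj e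
  obtain ⟨σ, hσ, e⟩ := exists_monoPerms (C := ternaryGolayCode) _ h1 _ h2 fun x hx => by
    obtain ⟨n, -, rfl⟩ := exists_tword hx
    generalize getL 0 (getL [] transv i) (aix y) = c at h5
    have : (fun p => sgnC c p * tword n (permC c p)) = ∑ j ∈ Finset.range 6,
        ((n / 3 ^ j % 3 : ℕ) : ZMod 3) • fun p => sgnC c p * trow j (permC c p) := by
      funext p
      rw [tword_eq, Finset.sum_apply, Finset.sum_apply, Finset.mul_sum]
      exact Finset.sum_congr rfl fun j _ => mul_left_comm _ _ _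
    rw [this]
    exact Submodule.sum_mem _ fun j hj => Submodule.smul_mem _ _
      (h5 j (Finset.mem_range.1 hj))
  exact ⟨σ, hσ, fun j hj => (e _).trans (h3 j hj), (e _).trans h4⟩

end Cfsg.Agent.Spor.Tern
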