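import Cfsg.Agent.Spor.Golay

/-!
Counting the `k`-element subsets of a set of points that have a property decided on masks.
-/

set_option autoImplicit false

namespace Cfsg.Agent.Spor

open Cfsg Cfsg.Agent.Comp

/-- The number of `k`-subsets `m` of the first `n` bits of `D` with `Q (a ||| m)`. -/
noncomputable def cntSub (D : ℕ) (Q : ℕ → Bool) (n : ℕ) : ℕ → ℕ → ℕ :=
  Nat.rec (motive := fun _ => ℕ → ℕ → ℕ) (fun k a => ite' (and' (Nat.beq k 0) (Q a)) 1 0)
    (fun n ih k a => Nat.add (ih k a) (ite' (and' (tb D n) (Nat.blt 0 k))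
      (force (Nat.lor a (Nat.shiftLeft 1 n)) fun a' => force (Nat.pred k) fun k' => ih k' a') 0)) n

theorem pop_succ (n m : ℕ) : pop (n + 1) m = pop n m + if m.testBit n = true then 1 else 0 := by
  rw [pop_eq, pop_eq, Finset.range_add_one, Finset.filter_insert]
  split_ifs with h
  · rw [Finset.card_insert_of_notMem (by simp)]
  · rfl

theorem pop_congr {n m m' : ℕ} (h : ∀ i < n, m.testBit i = m'.testBit i) : pop n m = pop n m' := by
  rw [pop_eq, pop_eq]
  congr 1
  exact Finset.filter_congr fun i hi => by rw [h i (Finset.mem_range.1 hi)]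

theorem cntSub_eq (D : ℕ) (Q : ℕ → Bool) (n k a : ℕ) :
    cntSub D Q n k a = ((Finset.range (2 ^ n)).filter fun m =>
      m &&& D = m ∧ pop n m = k ∧ Q (a ||| m) = true).card := by
  induction n generalizing k a with
  | zero =>
    have : cntSub D Q 0 k a = ite' (and' (Nat.beq k 0) (Q a)) 1 0 := rfl
    rw [this, ite'_eq, pow_zero, Finset.range_one, Finset.filter_singleton]
    have e : pop 0 0 = 0 := rfl
    simp only [and'_eq_true, beq_iff, Nat.zero_and, Nat.or_zero, true_and, e, eq_comm (a := k)]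
    split_ifs <;> rfl
  | succ n ih =>
    have : cntSub D Q (n + 1) k a = cntSub D Q n k a + ite' (and' (tb D n) (Nat.blt 0 k))
      (force (Nat.lor a (Nat.shiftLeft 1 n)) fun a' => force (Nat.pred k) fun k' =>
        cntSub D Q n k' a') 0 := rfl
    rw [this, force_eq, force_eq, ih, ih, ite'_eq, pow_succ, mul_two, Finset.card_filter,
      Finset.card_filter, Finset.card_filter, Finset.sum_range_add]
    congr 1
    · refine Finset.sum_congr rfl fun m hm => ?_
      rw [pop_succ, Nat.testBit_lt_two_pow (Finset.mem_range.1 hm)]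
      simp
    · have key : ∀ m ∈ Finset.range (2 ^ n), ((2 ^ n + m) &&& D = 2 ^ n + m ∧
          pop (n + 1) (2 ^ n + m) = k ∧ Q (a ||| (2 ^ n + m)) = true) ↔
          (and' (tb D n) (Nat.blt 0 k) = true ∧ (m &&& D = m ∧ pop n m = k.pred ∧
            Q (a.lor (Nat.shiftLeft 1 n) ||| m) = true)) := by
        intro m hm
        have hm' := Finset.mem_range.1 hm
        have e0 : 2 ^ n + m = 2 ^ n ||| m := by
          simpa using Nat.two_pow_add_eq_or_of_lt hm' 1
        have e1 : a.lor (Nat.shiftLeft 1 n) ||| m = a ||| (2 ^ n + m) := by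
          rw [e0, ← Nat.or_assoc]; exact congrArg (fun x => a ||| x ||| m) (Nat.one_shiftLeft n)
        have e2 : pop (n + 1) (2 ^ n + m) = pop n m + 1 := by
          rw [pop_succ, Nat.testBit_two_pow_add_eq, Nat.testBit_lt_two_pow hm']
          exact congrArg (· + 1) (pop_congr fun i hi => Nat.testBit_two_pow_add_gt hi m)
        have e3 : (2 ^ n + m) &&& D = 2 ^ n + m ↔ D.testBit n = true ∧ m &&& D = m := by
          rw [e0]
          constructor
          · intro h
            have h1 := fun i => congrArg (fun x => x.testBit i) h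
            simp only [Nat.testBit_and, Nat.testBit_or, Nat.testBit_two_pow] at h1
            refine ⟨by simpa using h1 n, Nat.eq_of_testBit_eq fun i => ?_⟩
            have := h1 i
            rw [Nat.testBit_and]
            revert this
            cases m.testBit i <;> simp
          · rintro ⟨h1, h2⟩
            rw [Nat.and_or_distrib_right, h2, Nat.two_pow_and, h1]; simp
        rw [e1, e2, e3, and'_eq_true, tb_eq, blt_iff, Nat.pred_eq_sub_one]
        constructor
        · rintro ⟨⟨h1, h2⟩, h3, h4⟩; exact ⟨⟨h1, by omega⟩, h2, by omega, h4⟩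
        · rintro ⟨⟨h1, h2⟩, h3, h4, h5⟩; exact ⟨⟨h1, h3⟩, by omega, h5⟩
      split_ifs with h
      · exact Finset.sum_congr rfl fun m hm => if_congr (by rw [key m hm]; simp [h]) rfl rfl
      · exact (Finset.sum_eq_zero fun m hm => if_neg fun h' => h ((key m hm).1 h').1).symm

/-- Counting `k`-subsets of `setOf' D`. -/
theorem ncard_sub (D k : ℕ) (P : Finset GolayPt → Prop) (Q : ℕ → Bool)
    (h : ∀ t, t ⊆ setOf' D → t.card = k → (P t ↔ Q (maskOf t) = true)) :
    {t | t ⊆ setOf' D ∧ t.card = k ∧ P t}.ncard = cntSub D Q 24 k 0 := by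
  rw [cntSub_eq, ← Set.ncard_coe_finset]
  apply Set.ncard_congr (fun t _ => maskOf t)
  · rintro t ⟨h1, h2, h3⟩
    simp only [Finset.coe_filter, Finset.mem_range, Set.mem_setOf_eq, Nat.zero_or]
    exact ⟨maskOf_lt t, (setOf'_subset_iff (maskOf_lt t)).1 (by rwa [setOf'_maskOf]),
      by rw [← card_eq_pop, h2], (h t h1 h2).1 h3⟩
  · intro s t _ _ e; exact maskOf_injective e
  · intro m hm
    simp only [Finset.coe_filter, Finset.mem_range, Set.mem_setOf_eq, Nat.zero_or] at hm
    have h1 := (setOf'_subset_iff hm.1).2 hm.2.1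
    have h2 : (setOf' m).card = k := by rw [card_setOf', hm.2.2.1]
    exact ⟨setOf' m, ⟨h1, h2, (h _ h1 h2).2 (by rw [maskOf_setOf' hm.1]; exact hm.2.2.2)⟩,
      maskOf_setOf' hm.1⟩

/-- A property of all `k`-subsets of `setOf' D`. -/
theorem forall_sub (D k : ℕ) (Q : ℕ → Bool) (h : cntSub D (fun m => not' (Q m)) 24 k 0 = 0)
    {t : Finset GolayPt} (ht : t ⊆ setOf' D) (hk : t.card = k) : Q (maskOf t) = true := by
  by_contra hQ
  rw [← ncard_sub D k (fun t => ¬ Q (maskOf t) = true) _ fun _ _ _ => (not'_eq_true _).symm,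
    Set.ncard_eq_zero] at h
  exact (h ▸ (⟨ht, hk, hQ⟩ : t ∈ {t | t ⊆ setOf' D ∧ t.card = k ∧ ¬ Q (maskOf t) = true}) :
    t ∈ (∅ : Set (Finset GolayPt)))

attribute [irreducible] cntSub

end Cfsg.Agent.Spor
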