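import Cfsg.Agent.Spor.M24Enum
import Cfsg.Agent.Spor.M24Flags
import Cfsg.Agent.Spor.SubCount

/-!
Hexads and quartets of a dodecad.
-/

set_option autoImplicit false

namespace Cfsg.Agent.Spor.M24C

open Cfsg Cfsg.Agent.Comp Cfsg.Agent.Spor Cfsg.Agent.Comp.T3
open scoped Pointwise

local notation "E" => T3.N T3.L T3.L T3.L

/-- The masks of the 132 hexads of the standard dodecad. -/
def hexL0 : List ℕ := [343, 591, 797, 858, 4127, 4430, 4441, 4691, 4700, 4875, 4886, 4933, 8285, 8478, 8523, 8731, 8790, 8967, 9036, 9041, 12359, 12378, 12557, 12563, 12628, 12814, 12821, 12873, 13080, 13122, 65627, 65807, 65884, 66078, 66133, 66323, 66374, 66377, 69709, 69718, 69909, 69914, 69955, 70151, 70169, 70218, 70412, 70480, 73751, 73806, 74009, 74053, 74066, 74253, 74307, 74328, 74506, 74516, 77835, 77852, 77905, 78086, 78152, 78354, 78404, 78593, 262238, 262427, 262477, 262679, 262745, 262926, 262979, 262996, 266315, 266325, 266503, 266524, 266578, 266765, 266778, 266822, 267025, 267080, 270351, 270419,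 270613, 270662, 270680, 270876, 270917, 270922, 271113, 271122, 274454, 274457, 274508, 274698, 274753, 274947, 275024, 275204, 327709, 327751, 327958, 328010, 328017, 328203, 328268, 328274, 328453, 328472, 331790, 331795, 331864, 332041, 332100, 332308, 332353, 332546, 335898, 335945, 335956, 336131, 336140, 336390, 336401, 336704, 339973, 340034, 340240, 340488]

theorem mem_hexadsOn_d0 (s : Finset GolayPt) :
    s ∈ hexadsOn (setOf' 340831) ↔ anyL hexL0 (Nat.beq (maskOf s)) = true := by
  simp only [anyL_iff, beq_iff]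
  constructor
  · rintro ⟨h6, o, ho, rfl⟩
    have : allB 4096 (fun a => force (enc a) fun w => force (Nat.land w 340831) fun m =>
        or' (not' (and' (Nat.beq (pop 24 w) 8) (Nat.beq (pop 24 m) 6))) (anyL hexL0 (Nat.beq m)))
        = true := by decide +kernel
    simp only [allB_iff, force_eq, or'_eq_true, not'_eq_true, and'_eq_true, beq_iff,
      anyL_iff] at this
    obtain ⟨a, ha, rfl⟩ := (mem_codeSets_iff_enc o).1 ho.1
    rw [← setOf'_land] at h6 ⊢
    rw [maskOf_setOf' (lt_of_le_of_lt Nat.and_le_left (enc_lt ha))]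
    exact (this a ha).resolve_left (not_not.2 ⟨by rw [← card_setOf']; exact ho.2,
      by rw [← card_setOf']; exact h6⟩)
  · rintro ⟨m, hm, e⟩
    have h1 : List.map (fun w => Nat.land w 340831) [1065303, 4196943, 10486557, 525274, 5279, 2232654, 39257, 8524371, 21116, 1053483, 4231958, 530245, 663645, 10558, 8398155, 57883, 2106966, 140167, 1090380, 4203377, 45159, 5255258, 4223245, 2634003, 8401364, 8925710, 1063445, 2110153, 145176, 31554, 2162811, 622863, 4261212, 1245726, 99029, 69395, 8455014, 213833, 9506893, 596054, 201013, 8474906, 4264387, 2183687, 4788761, 104010, 72588, 3216208, 12656663, 90318, 1122713, 2173253, 237906, 75309, 1647171, 8464984, 6365962, 615188, 210955, 2207772, 95313, 1127686, 602472, 78514, 4403780, 8499969, 8683614, 4587803, 262637, 786999, 1312345, 280334, 2392899, 396116, 806987, 6557781, 8657159, 1839388, 267634, 430605, 2365978, 1315526, 283537, 12849992, 3416079, 272595, 304405, 4989254, 2384216, 4465308, 8675909, 402026, 797449, 9708306, 421910, 8663097,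 277580, 307594, 1454401, 4470275, 832080, 2372388, 346141, 459847, 2425238, 1378634, 9240913, 8716939, 2949708, 4538962, 5571333, 361272, 4526126, 1413139, 463064, 2430217, 381252, 8721940, 334433, 987906, 861210, 4563017, 1384564, 352547, 8855820, 371206, 2564625, 337856, 864389, 10825794, 4536592, 1405448] = hexL0 := by decide +kernel
    have h2 : allL [1065303, 4196943, 10486557, 525274, 5279, 2232654, 39257, 8524371, 21116, 1053483, 4231958, 530245, 663645, 10558, 8398155, 57883, 2106966, 140167, 1090380, 4203377, 45159, 5255258, 4223245, 2634003, 8401364, 8925710, 1063445, 2110153, 145176, 31554, 2162811, 622863, 4261212, 1245726, 99029, 69395, 8455014, 213833, 9506893, 596054, 201013, 8474906, 4264387, 2183687, 4788761, 104010, 72588, 3216208, 12656663, 90318, 1122713, 2173253, 237906, 75309, 1647171, 8464984, 6365962, 615188, 210955, 2207772, 95313, 1127686, 602472, 78514, 4403780, 8499969, 8683614, 4587803, 262637, 786999, 1312345, 280334, 2392899, 396116, 806987, 6557781, 8657159,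 1839388, 267634, 430605, 2365978, 1315526, 283537, 12849992, 3416079, 272595, 304405, 4989254, 2384216, 4465308, 8675909, 402026, 797449, 9708306, 421910, 8663097, 277580, 307594, 1454401, 4470275, 832080, 2372388, 346141, 459847, 2425238, 1378634, 9240913, 8716939, 2949708, 4538962, 5571333, 361272, 4526126, 1413139, 463064, 2430217, 381252, 8721940, 334433, 987906, 861210, 4563017, 1384564, 352547, 8855820, 371206, 2564625, 337856, 864389, 10825794, 4536592, 1405448] (fun w => and' (and' (isCW w) (Nat.beq (pop 24 w) 8))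
      (Nat.beq (pop 24 (Nat.land w 340831)) 6)) = true := by decide +kernel
    rw [← h1] at hm
    obtain ⟨w, hw, rfl⟩ := List.mem_map.1 hm
    have h3 := (allL_iff _ _).1 h2 w hw
    rw [and'_eq_true, beq_iff] at h3
    rw [← setOf'_maskOf s, e]
    exact ⟨by rw [card_setOf']; exact h3.2, setOf' w, setOf'_mem_octads h3.1,
      (setOf'_land _ _).symm⟩

theorem smul_mem_hexadsOn (g : M24) {d h : Finset GolayPt} (hh : h ∈ hexadsOn d) :
    g • h ∈ hexadsOn (g • d) := by
  obtain ⟨h6, o, ho, rfl⟩ := hh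
  exact ⟨by rwa [Finset.card_smul_finset], g • o, (smul_mem_octads_iff g).2 ho,
    Finset.smul_finset_inter.symm⟩

theorem smul_mem_quartets (g : M24) {d : Finset GolayPt} {Q : Finset (Finset GolayPt)}
    (hQ : Q ∈ quartets d) : g • Q ∈ quartets (g • d) := by
  refine ⟨by rw [Finset.card_smul_finset]; exact hQ.1, fun t ht => ?_, fun t ht u hu hne => ?_⟩
  · obtain ⟨t, ht', rfl⟩ := Finset.mem_smul_finset.1 ht
    exact ⟨by rw [Finset.card_smul_finset]; exact (hQ.2.1 t ht').1,
      Finset.smul_finset_subset_smul_finset (hQ.2.1 t ht').2⟩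
  · obtain ⟨t, ht', rfl⟩ := Finset.mem_smul_finset.1 ht
    obtain ⟨u, hu', rfl⟩ := Finset.mem_smul_finset.1 hu
    rw [← Finset.smul_finset_union]
    exact smul_mem_hexadsOn g (hQ.2.2 t ht' u hu' fun e => hne (by rw [e]))

theorem smul_mem_quartets_iff (g : M24) {d : Finset GolayPt} {Q : Finset (Finset GolayPt)} :
    g • Q ∈ quartets (g • d) ↔ Q ∈ quartets d :=
  ⟨fun h => by simpa using smul_mem_quartets g⁻¹ h, smul_mem_quartets g⟩

/-- The check that a packed family is a quartet of the standard dodecad. -/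
noncomputable def quOK (x : ℕ) : Bool :=
  allLT 4 fun i => and' (and' (Nat.beq (pop 24 (mem24 x i)) 3)
    (Nat.beq (Nat.land (mem24 x i) 340831) (mem24 x i))) (allLT 4 fun j => or' (Nat.beq i j)
      (force (Nat.lor (mem24 x i) (mem24 x j)) fun m =>
        and' (Nat.beq (pop 24 m) 6) (anyL hexL0 (Nat.beq m))))

theorem famOf_mem_quartets {x : ℕ} (h : quOK x = true) : famOf 4 x ∈ quartets (setOf' 340831) := by
  simp only [quOK, allLT_iff, and'_eq_true, or'_eq_true, beq_iff, force_eq] at h
  refine ⟨card_famOf fun i hi j hj e => ?_, forall_mem_famOf.2 fun j hj => ?_,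
    forall_mem_famOf.2 fun i hi => forall_mem_famOf.2 fun j hj hne => ?_⟩
  · by_contra hne
    have h1 := (((h i hi).2 j hj).resolve_left hne).1
    have h2 := (h j hj).1.1
    rw [e, show (mem24 x j).lor (mem24 x j) = mem24 x j from Nat.or_self _] at h1
    omega
  · exact ⟨by rw [card_setOf']; exact (h j hj).1.1, (setOf'_subset_iff (mem24_lt _ _)).2 (h j hj).1.2⟩
  · rw [mem_hexadsOn_d0, maskOf_union, maskOf_setOf' (mem24_lt _ _), maskOf_setOf' (mem24_lt _ _)]
    exact (((h i hi).2 j hj).resolve_left fun e => hne (by rw [e])).2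

/-- The standard quartet, with masks `[7, 4120, 327744, 8960]`. -/
def qu0 : ℕ := 0x2300050040001018000007

theorem qu0_mem : famOf 4 qu0 ∈ quartets (setOf' 340831) := famOf_mem_quartets (by decide +kernel)

theorem quartet_eq_qu0 {Q : Finset (Finset GolayPt)} (hQ : Q ∈ quartets (setOf' 340831))
    (h1 : setOf' 7 ∈ Q) (h2 : setOf' 4120 ∈ Q) : Q = famOf 4 qu0 := by
  refine Finset.eq_of_subset_of_card_le (fun v hv => ?_) (by rw [hQ.1, qu0_mem.1])
  rw [← setOf'_maskOf v, setOf'_mem_famOf_iff (maskOf_lt v)]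
  by_cases e1 : v = setOf' 7
  · exact ⟨0, by norm_num, by rw [e1, maskOf_setOf' (by norm_num)]; decide +kernel⟩
  by_cases e2 : v = setOf' 4120
  · exact ⟨1, by norm_num, by rw [e2, maskOf_setOf' (by norm_num)]; decide +kernel⟩
  have h3 := (mem_hexadsOn_d0 _).1 (hQ.2.2 v hv _ h1 e1)
  have h4 := (mem_hexadsOn_d0 _).1 (hQ.2.2 v hv _ h2 e2)
  rw [maskOf_union, maskOf_setOf' (by norm_num)] at h3 h4
  have := forall_sub 340831 3 (fun m => or' (not' (and' (anyL hexL0 (Nat.beq (Nat.lor m 7)))
    (anyL hexL0 (Nat.beq (Nat.lor m 4120))))) (anyLT 4 fun j => Nat.beq (mem24 qu0 j) m))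
    (by decide +kernel) (hQ.2.1 v hv).2 (hQ.2.1 v hv).1
  simp only [or'_eq_true, not'_eq_true, and'_eq_true, anyLT_iff, beq_iff] at this
  exact this.resolve_left (not_not.2 ⟨h3, h4⟩)

theorem hexad_eq_of_five_le {d h h' : Finset GolayPt} (hh : h ∈ hexadsOn d) (hh' : h' ∈ hexadsOn d)
    (h5 : 5 ≤ (h ∩ h').card) : h = h' := by
  obtain ⟨-, o, ho, rfl⟩ := hh
  obtain ⟨-, o', ho', rfl⟩ := hh'
  rw [octad_eq_of_five_le ho ho' (h5.trans (Finset.card_le_card
    (Finset.inter_subset_inter Finset.inter_subset_left Finset.inter_subset_left)))]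

/-- Normal form of two complementary triples of a hexad. -/
theorem exists_smul_triples {d t u : Finset GolayPt} (hd : d ∈ dodecads) (ht : t.card = 3)
    (hu : u.card = 3) (hh : t ∪ u ∈ hexadsOn d) :
    ∃ g : M24, g • setOf' 340831 = d ∧ g • setOf' 7 = t ∧ g • setOf' 4120 = u := by
  have htu : Disjoint t u := by
    rw [← Finset.card_union_eq_card_add_card, hh.1, ht, hu]
  have hsub : t ∪ u ⊆ d := by
    obtain ⟨-, o, -, e⟩ := hh
    rw [← e]; exact Finset.inter_subset_right
  obtain ⟨k, rfl⟩ := exists_smul_dod0 hd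
  obtain ⟨a, b, c, hab, hac, hbc, rfl⟩ := Finset.card_eq_three.1 ht
  obtain ⟨e, f, z, hef, hez, hfz, rfl⟩ := Finset.card_eq_three.1 hu
  have htu' := htu
  simp only [Finset.disjoint_insert_left, Finset.disjoint_singleton_left, Finset.mem_insert,
    Finset.mem_singleton, not_or] at htu
  obtain ⟨g, hg, hm⟩ := exists_dodecad_map hd le_rfl (fun i : Fin 5 => k • pt i) ![a, b, c, e, f]
    (fun i => Finset.smul_mem_smul_finset (by revert i; decide +kernel))
    (fun i => hsub (by fin_cases i <;> simp))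
    ((MulAction.injective k).comp (f := fun i : Fin 5 => pt i) (by decide +kernel)) (by
      obtain ⟨⟨_, _, _⟩, ⟨_, _, _⟩, _, _, _⟩ := htu
      intro i j; fin_cases i <;> fin_cases j <;> simp [*, Ne.symm])
  have h0 : g • k • pt 0 = a := hm 0
  have h1 : g • k • pt 1 = b := hm 1
  have h2 : g • k • pt 2 = c := hm 2
  have h3 : g • k • pt 3 = e := hm 3
  have h4 : g • k • pt 4 = f := hm 4
  have e1 : (g * k) • setOf' 340831 = k • setOf' 340831 := by rw [mul_smul, hg]
  have e2 : (g * k) • setOf' 7 = {a, b, c} := by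
    rw [show setOf' 7 = {pt 0, pt 1, pt 2} by decide +kernel]
    simp only [Finset.smul_finset_insert, Finset.smul_finset_singleton, mul_smul, h0, h1, h2]
  have e3 : (g * k) • setOf' 31 ⊆ {a, b, c} ∪ {e, f, z} := by
    rw [show setOf' 31 = {pt 0, pt 1, pt 2, pt 3, pt 4} by decide +kernel]
    simp only [Finset.smul_finset_insert, Finset.smul_finset_singleton, mul_smul, h0, h1, h2, h3,
      h4]
    intro x
    simp only [Finset.mem_insert, Finset.mem_singleton, Finset.mem_union]
    tauto
  have e4 : (g * k) • setOf' 4127 = {a, b, c} ∪ {e, f, z} := by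
    have h5 := smul_mem_hexadsOn (g * k) ((mem_hexadsOn_d0 (setOf' 4127)).2 (by
      rw [maskOf_setOf' (by norm_num)]; decide +kernel))
    rw [e1] at h5
    refine hexad_eq_of_five_le h5 hh (le_trans ?_ (Finset.card_le_card (Finset.subset_inter
      (Finset.smul_finset_subset_smul_finset ((setOf'_subset_iff (by norm_num)).2 (by decide))) e3)))
    rw [Finset.card_smul_finset, card_setOf']; decide +kernel
  refine ⟨g * k, e1, e2, ?_⟩
  rw [show setOf' 4120 = setOf' 4127 \ setOf' 7 by decide +kernel, Finset.smul_finset_sdiff, e4, e2,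
    Finset.union_sdiff_cancel_left htu']

theorem exists_smul_qu0 {d : Finset GolayPt} (hd : d ∈ dodecads) {Q : Finset (Finset GolayPt)}
    (hQ : Q ∈ quartets d) : ∃ g : M24, g • setOf' 340831 = d ∧ g • famOf 4 qu0 = Q := by
  obtain ⟨t, ht, u, hu, hne⟩ := Finset.one_lt_card.1 (show 1 < Q.card by rw [hQ.1]; norm_num)
  obtain ⟨g, rfl, rfl, rfl⟩ := exists_smul_triples hd (hQ.2.1 t ht).1 (hQ.2.1 u hu).1
    (hQ.2.2 t ht u hu hne)
  obtain ⟨Q, rfl⟩ := MulAction.surjective g Q
  rw [smul_mem_quartets_iff] at hQ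
  rw [Finset.smul_mem_smul_finset_iff] at ht hu
  exact ⟨g, rfl, by rw [quartet_eq_qu0 hQ ht hu]⟩

theorem orbit_qu0 : MulAction.orbit (MulAction.stabilizer M24 (setOf' 340831)) (famOf 4 qu0) =
    quartets (setOf' 340831) := by
  ext Q
  constructor
  · rintro ⟨g, rfl⟩
    have := smul_mem_quartets (g : M24) qu0_mem
    rwa [MulAction.mem_stabilizer_iff.1 g.2] at this
  · intro hQ
    obtain ⟨g, h1, h2⟩ := exists_smul_qu0 d0_mem hQ
    exact ⟨⟨g, h1⟩, h2⟩

/-- The stabiliser of the standard dodecad and quartet. -/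
noncomputable abbrev stabQ : Subgroup M24 :=
  MulAction.stabilizer M24 (setOf' 340831) ⊓ MulAction.stabilizer M24 (famOf 4 qu0)

/-- A generator of `stabQ`. -/
def gQ0 : ℕ := 891111908759189567589811697250205761
/-- A generator of `stabQ`. -/
def gQ1 : ℕ := 477311928437955568329074094085935212

theorem okgQ0 : okM gQ0 = true := by decide +kernel
theorem okgQ1 : okM gQ1 = true := by decide +kernel
theorem memgQ0 : mc gQ0 ∈ stabQ :=
  ⟨mc_mem_stabilizer_set okgQ0 (by decide +kernel), mc_mem_stabilizer_fam okgQ0 (by decide +kernel)⟩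
theorem memgQ1 : mc gQ1 ∈ stabQ :=
  ⟨mc_mem_stabilizer_set okgQ1 (by decide +kernel), mc_mem_stabilizer_fam okgQ1 (by decide +kernel)⟩

theorem card_gen_gQ : 432 ≤ Nat.card (gen [gQ0, gQ1]) :=
  card_ge_of_slp (inH_gen (by decide +kernel)) [1, 2, 3, 4, 4, 6150, 6, 8, 8, 9, 5125, 1, 7, 3075] 7506976 3 [[14, 15], [9, 4], [1, 3, 0], [1], [1]] (by decide +kernel)

theorem inH_gQ : ∀ c ∈ [gQ0, gQ1], InH stabQ c := by
  simp only [List.mem_cons, List.not_mem_nil, or_false, forall_eq_or_imp, forall_eq]
  exact ⟨inH_of_okM okgQ0 memgQ0, inH_of_okM okgQ1 memgQ1⟩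

theorem ncard_quartets_card_stabQ :
    (quartets (setOf' 340831)).ncard = 220 ∧ Nat.card stabQ = 432 := by
  have h1 := card_eq_orbit_mul (MulAction.stabilizer M24 (setOf' 340831)) (famOf 4 qu0)
  have h2 : 432 ≤ Nat.card stabQ := card_gen_gQ.trans (Subgroup.card_le_of_le (gen_le inH_gQ))
  have h3 : 220 ≤ (MulAction.orbit (MulAction.stabilizer M24 (setOf' 340831))
      (famOf 4 qu0)).ncard :=
    fam_orbit_ge _ (c0 := 796307330265722273219902418137455116) (c1 := 892009401675130828201310623453753485) (c2 := 796307330265722273219902418137455116)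
      (by decide +kernel) (by decide +kernel) (by decide +kernel)
      (mc_mem_stabilizer_set (by decide +kernel) (by decide +kernel))
      (mc_mem_stabilizer_set (by decide +kernel) (by decide +kernel))
      (mc_mem_stabilizer_set (by decide +kernel) (by decide +kernel)) 4
      (N (N (N (N (N (N E L L) (N (N (N (N L (N (N L (N L E L) L) L L) L) (N E L L) L) (N (N E L L) (N (N L E L) L L) L) L) (N E L L) L) L) (N (N (N (N L (N E L L) L) L L) (N (N L (N L (N (N L E L) E L) L) L) L L) L) (N (N L (N (N E L L) L L) L) L L) L) L) (N (N E (N (N (N L (N E L L) L) L L) (N E (N E L L) L) L) L) (N (N (N (N L (N (N L (N L (N E L L) L) L) E L) L) (N (N L E L) E L) L) (N (N (N E L L) (N E (N E L L) L) L) (N (N E L L) (N E L L) L) L) L) (N (N L E L) L L) L) L) L) (N (N (N (N L (N (N (N E L L) (N L (N L E L) L) L) (N E E L) L) L) L L) (N (N (N (N L (N L E L) L) (N E L L) L) (N (N L (N (N L (N L E L) L) L L) L) (N L (N (N L E L) L L) L) L) L) (N L (N (N L (N L (N L E L) L) L) L L) L) L) L) (N (N (N L (N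 (N L (N E L L) L) L L) L) (N L (N (N L (N E L L) L) E L) L) L) (N (N L (N (N L (N E L L) L) (N L E L) L) L) L L) L) L) L) (N (N (N (N (N (N L E L) L L) (N (N (N E L L) (N (N L (N L E L) L) L L) L) (N (N (N E L L) (N E L L) L) L L) L) L) (N (N (N L (N E L L) L) (N E L L) L) (N (N L (N (N E L L) E L) L) L L) L) L) (N (N (N L E L) (N (N E (N (N L E L) L L) L) (N L (N E L L) L) L) L) (N (N (N L (N E L L) L) (N E (N (N L E L) L L) L) L) (N (N L (N (N L (N (N L E L) L L) L) L L) L) L L) L) L) L) (N L (N (N (N (N L (N (N E L L) L L) L) L L) (N (N L (N E L L) L) L L) L) L L) L) L) L) qu0 (hsh 0x300100000000900000006001c000500020000002c00200009000b003100270000000f0034000200000001000300030005001000010005000900130000000700010002000c00050002000100000000000f00110002000f002300010004001e00260021001f00000004000200000014000000240005001f0000000500010014000900030003000200070009000200040000 73 1199437 256) 8 (by decide +kernel)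
  rw [card_stabilizer_dodecad d0_mem] at h1
  rw [orbit_qu0] at h1 h3
  constructor <;> nlinarith

theorem gen_gQ : gen [gQ0, gQ1] = stabQ :=
  gen_eq_of_card inH_gQ (ncard_quartets_card_stabQ.2.trans_le card_gen_gQ)

theorem mem_stabQ_smul (g k : M24) : k ∈ MulAction.stabilizer M24 (g • setOf' 340831) ⊓
    MulAction.stabilizer M24 (g • famOf 4 qu0) ↔ g⁻¹ * k * g ∈ stabQ := by
  simp only [Subgroup.mem_inf, mem_stabilizer_smul_iff]

theorem orbQ_0 : 1 ≤ (MulAction.orbit stabQ (famOf 4 0x2300050040001018000007)).ncard :=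
  fam_orbit_ge _ okgQ0 okgQ1 okgQ0 memgQ0 memgQ1 memgQ0 4 (E) 0x2300050040001018000007 (hsh 0x0 1 3 2) 1 (by decide +kernel)

theorem orbQ_1 : 12 ≤ (MulAction.orbit stabQ (famOf 4 0x4c040012002300011001)).ncard :=
  fam_orbit_ge _ okgQ0 okgQ1 okgQ0 memgQ0 memgQ1 memgQ0 4 ((N (N (N L (N E L L) L) E L) (N (N E L L) (N (N L E L) L L) L) L)) 0x4c040012002300011001 (hsh 0x0 1 531 16) 4 (by decide +kernel)

theorem orbQ_2 : 27 ≤ (MulAction.orbit stabQ (famOf 4 0x103002204040018011040)).ncard :=
  fam_orbit_ge _ okgQ0 okgQ1 okgQ0 memgQ0 memgQ1 memgQ0 4 ((N (N E (N (N (N L E L) (N (N E L L) L L) L) L L) L) (N (N E (N (N E L L) (N L E L) L) L) (N (N E (N E L L) L) (N E (N E L L) L) L) L) L)) 0x103002204040018011040 (hsh 0x10002001300040000000b00170006000100010001 11 1396411 32) 5 (by decide +kernel)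

theorem orbQ_3 : 72 ≤ (MulAction.orbit stabQ (famOf 4 0x12008000302001014040041)).ncard :=
  fam_orbit_ge _ okgQ0 okgQ1 okgQ0 memgQ0 memgQ1 memgQ0 4 ((N (N (N L (N (N E L L) (N (N E L L) L L) L) L) (N (N (N L (N (N E E L) L L) L) (N (N (N L E L) (N L E L) L) (N L (N E L L) L) L) L) (N (N (N L E L) (N L E L) L) (N (N (N L (N L E L) L) L L) E L) L) L) L) (N (N (N L (N (N L (N L E L) L) L L) L) (N (N (N L E L) (N E E L) L) L L) L) (N (N (N L (N (N E L L) E L) L) (N (N E L L) (N E L L) L) L) (N (N E E L) (N (N (N L E L) L L) E L) L) L) L) L)) 0x12008000302001014040041 (hsh 0x1000200000004000100000005000000000001000100000002000100000001000100030001000500010000000a00000001000500000001 29 1429567 128) 7 (by decide +kernel)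

theorem orbQ_4 : 108 ≤ (MulAction.orbit stabQ (famOf 4 0x1100200014104000c002210)).ncard :=
  fam_orbit_ge _ okgQ0 okgQ1 okgQ0 memgQ0 memgQ1 memgQ0 4 ((N (N (N L (N (N (N L (N E L L) L) (N E (N E L L) L) L) (N L (N (N E L L) E L) L) L) L) (N (N (N L (N (N E L L) (N (N E L L) E L) L) L) (N E (N (N E L L) L L) L) L) (N (N (N L (N E L L) L) (N (N L (N L E L) L) L L) L) (N (N (N L (N L (N E L L) L) L) (N L E L) L) (N (N E L L) (N L E L) L) L) L) L) L) (N (N (N L (N (N E (N (N L E L) L L) L) (N (N E L L) (N E L L) L) L) L) (N (N (N L E L) (N E E L) L) (N (N E (N L E L) L) (N E L L) L) L) L) (N (N (N L (N L (N E E L) L) L) (N (N E L L) E L) L) (N (N (N L E L) (N (N L E L) (N E L L) L) L) (N E (N E (N L E L) L) L) L) L) L) L)) 0x1100200014104000c002210 (hsh 0x2000600000001000100040000002200000012000b0002000200000005000a00040008002700000009000000220003000a000400100005001300010019000700010000000500220000 37 1465691 128) 7 (by decide +kernel)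

/-- The number of members of the standard quartet meeting a member of `B` in `k` points. -/
noncomputable def nInt (k : ℕ) (B : Finset (Finset GolayPt)) : ℕ :=
  ((famOf 4 qu0).filter fun a => ∃ b ∈ B, (a ∩ b).card = k).card

theorem nInt_smul (k : ℕ) {g : M24} (hg : g ∈ stabQ) (B : Finset (Finset GolayPt)) :
    nInt k (g • B) = nInt k B := by
  rw [nInt, nInt]
  conv_rhs => rw [← Finset.card_smul_finset g]
  congr 1
  ext a
  obtain ⟨a, rfl⟩ : ∃ b, g • b = a := MulAction.surjective g a
  rw [Finset.smul_mem_smul_finset_iff, Finset.mem_filter, Finset.mem_filter]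
  refine and_congr ?_ ⟨?_, ?_⟩
  · conv_lhs => rw [← MulAction.mem_stabilizer_iff.1 hg.2, Finset.smul_mem_smul_finset_iff]
  · rintro ⟨b, hb, e⟩
    obtain ⟨b, hb', rfl⟩ := Finset.mem_smul_finset.1 hb
    exact ⟨b, hb', by rwa [card_smul_inter] at e⟩
  · rintro ⟨b, hb, e⟩
    exact ⟨_, Finset.smul_mem_smul_finset hb, by rwa [card_smul_inter]⟩

theorem nInt_famOf (k y : ℕ) : nInt k (famOf 4 y) = cntLT 4 fun i => anyLT 4 fun j =>
    Nat.beq (pop 24 (Nat.land (mem24 qu0 i) (mem24 y j))) k := by
  rw [nInt, cntLT_eq, famOf.eq_1 4 qu0, Finset.filter_image, Finset.card_image_of_injOn]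
  · congr 1
    refine Finset.filter_congr fun i _ => ?_
    simp only [anyLT_iff, beq_iff, mem_famOf]
    constructor
    · rintro ⟨_, ⟨j, hj, rfl⟩, e⟩
      exact ⟨j, hj, by rw [← e, ← setOf'_land, card_setOf']; rfl⟩
    · rintro ⟨j, hj, e⟩
      exact ⟨_, ⟨j, hj, rfl⟩, by rw [← e, ← setOf'_land, card_setOf']; rfl⟩
  · have : ∀ i < 4, ∀ j < 4, mem24 qu0 i = mem24 qu0 j → i = j := by decide +kernel
    intro i hi j hj e
    exact this i (Finset.mem_range.1 (Finset.mem_filter.1 hi).1) j
      (Finset.mem_range.1 (Finset.mem_filter.1 hj).1) (setOf'_inj (mem24_lt _ _) (mem24_lt _ _) e)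

theorem orbDec_quartets0 : OrbDecAt stabQ (quartets (setOf' 340831)) ![1, 12, 27, 72, 108]
    fun i => famOf 4 (![0x2300050040001018000007, 0x4c040012002300011001, 0x103002204040018011040, 0x12008000302001014040041, 0x1100200014104000c002210] i) := by
  refine orbDecAt_of_inv _ _ (Set.toFinite _) (fun g hg Q hQ => ?_) (fun B => (nInt 2 B, nInt 3 B))
    (fun g hg B _ => by rw [nInt_smul 2 hg, nInt_smul 3 hg]) _
    (fun i => famOf_mem_quartets (by revert i; decide +kernel)) ?_ _ (fun i => ?_)
    (by rw [ncard_quartets_card_stabQ.1]; decide)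
  · have := smul_mem_quartets g hQ
    rwa [MulAction.mem_stabilizer_iff.1 hg.1] at this
  · simp only [nInt_famOf]
    decide +kernel
  · fin_cases i
    exacts [orbQ_0, orbQ_1, orbQ_2, orbQ_3, orbQ_4]


attribute [irreducible] hexL0 quOK gQ0 gQ1

end Cfsg.Agent.Spor.M24C
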