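import Cfsg.Agent.Spor.M24Facts
import Cfsg.Agent.Spor.M24Class

/-!
Moving a dodecad with up to five of its points to the standard position.
-/

set_option autoImplicit false

namespace Cfsg.Agent.Spor.M24C

open Cfsg Cfsg.Agent.Comp Cfsg.Agent.Spor MulAction
open scoped Pointwise

theorem exists_smul_d0_tuple {d : Finset GolayPt} (hd : d ∈ dodecads) {k : ℕ} (hk : k ≤ 5)
    (x : Fin k → GolayPt) (hx : ∀ i, x i ∈ d) (hi : Function.Injective x) :
    ∃ g : M24, g • setOf' 340831 = d ∧ ∀ j : Fin k, g • pt j = x j := by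
  obtain ⟨g, rfl⟩ := exists_smul_dodecad d0_mem hd
  obtain ⟨h, hh, hhx⟩ := exists_dodecad_map hd hk (fun j => g • pt j) x
    (fun j => Finset.smul_mem_smul_finset (by revert j; interval_cases k <;> decide +kernel)) hx
    ((MulAction.injective g).comp (f := fun j : Fin k => pt j)
      (by interval_cases k <;> decide +kernel)) hi
  exact ⟨h * g, by rw [mul_smul]; exact hh, fun j => by rw [mul_smul]; exact hhx j⟩

theorem mem_fixK_bD {H : Subgroup M24} {k : ℕ} (hk : k ≤ 5) {g : M24} :
    g ∈ fixK H bD k ↔ g ∈ H ∧ ∀ j < k, g • pt j = pt j := by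
  rw [mem_fixK]
  refine and_congr_right fun _ => forall₂_congr fun j hj => ?_
  rw [dg_bD (by omega)]

/-- An involution fixing a dodecad and one of its points fixes exactly four of its points. -/
theorem card_fixSet_inter_dodecad {d : Finset GolayPt} (hd : d ∈ dodecads) {g : M24}
    (hg : g • d = d) (h2 : orderOf g = 2) {p : GolayPt} (hp : g • p = p) :
    (fixSet g ∩ d).card = 4 := by
  have h1 : g ≠ 1 := (orderOf_two_iff.1 h2).1
  have h8 : (fixSet g).card = 8 := by
    by_contra h
    obtain ⟨k, hk⟩ := conj_z2 h2 h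
    have := card_fixSet_of_conj (k := k) (g := mc z2) hk.symm
    rw [card_fixSet_z2, eq_comm, Finset.card_eq_zero] at this
    have h3 : p ∈ fixSet g := mem_fixSet.2 hp
    rw [this] at h3
    exact absurd h3 (Finset.notMem_empty _)
  have key : ∀ e ∈ dodecads, g • e = e → (fixSet g ∩ e).card ≤ 4 := fun e he hge => by
    by_contra h
    exact h1 (eq_one_of_dodecad_finset he Finset.inter_subset_right (by omega : 5 ≤ _) hge
      (mem_fixS.2 fun x hx => mem_fixSet.1 (Finset.mem_inter.1 hx).1))
  have h3 := key d hd hg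
  have h4 := key dᶜ (compl_mem_dodecads hd) (by rw [smul_compl', hg])
  have h5 := Finset.card_sdiff_add_card_inter (fixSet g) d
  rw [Finset.sdiff_eq_inter_compl] at h5
  omega

end Cfsg.Agent.Spor.M24C
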