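import Cfsg.Agent.Spor.ModelJ2
import Cfsg.Agent.Spor.ModelU33

/-!
The point stabiliser of the Hall–Janko group on 100 points is `U₃(3)`, with orbits of length
`1`, `36`, `63`.
-/

set_option autoImplicit false
set_option maxRecDepth 100000

namespace Cfsg.Agent.Spor.J2U33

open Cfsg Cfsg.Agent.Comp Cfsg.Agent.Class ModelJ2

/-- Orbits on the cosets of a point stabiliser are orbits on points. -/
theorem ncard_orbit_quot {A : Type*} [Group A] {N b D : ℕ} {G K : Subgroup (Equiv.Perm ℕ)}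
    (e : A ≃* G) (h : IsStab N G K b D) (g : A) :
    (MulAction.orbit ((K.subgroupOf G).comap e.toMonoidHom)
      (g : A ⧸ (K.subgroupOf G).comap e.toMonoidHom)).ncard =
      {i | ∃ k ∈ K, k ((e g : Equiv.Perm ℕ) b) = i}.ncard := by
  have hm : ∀ x y : A, x⁻¹ * y ∈ (K.subgroupOf G).comap e.toMonoidHom ↔
      (e x : Equiv.Perm ℕ) b = (e y : Equiv.Perm ℕ) b := fun x y => by
    change ((e (x⁻¹ * y) : G) : Equiv.Perm ℕ) ∈ K ↔ _
    refine Iff.trans ⟨h.fix _, h.stab _ (e _).2⟩ ?_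
    rw [map_mul, map_inv, Subgroup.coe_mul, Subgroup.coe_inv, Equiv.Perm.mul_apply,
      Equiv.Perm.inv_eq_iff_eq, eq_comm]
  let f : A ⧸ (K.subgroupOf G).comap e.toMonoidHom → ℕ :=
    Quotient.lift (fun x : A => (e x : Equiv.Perm ℕ) b) fun x y hxy =>
      (hm x y).1 (QuotientGroup.leftRel_apply.1 hxy)
  have hf : Function.Injective f := fun q q' hq => by
    induction q using QuotientGroup.induction_on with | H x => ?_
    induction q' using QuotientGroup.induction_on with | H y => ?_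
    exact QuotientGroup.eq.2 ((hm x y).2 hq)
  rw [← Set.ncard_image_of_injective _ hf]
  congr 1
  ext i
  constructor
  · rintro ⟨_, ⟨l, rfl⟩, rfl⟩
    refine ⟨e l, l.2, ?_⟩
    rw [← Equiv.Perm.mul_apply, ← Subgroup.coe_mul, ← map_mul]; rfl
  · rintro ⟨k, hk, rfl⟩
    refine ⟨_, ⟨⟨e.symm ⟨k, h.le hk⟩, ?_⟩, rfl⟩, ?_⟩
    · change ((e (e.symm _) : G) : Equiv.Perm ℕ) ∈ K
      rwa [MulEquiv.apply_symm_apply]
    · change (e (e.symm ⟨k, h.le hk⟩ * g) : Equiv.Perm ℕ) b = _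
      rw [map_mul, MulEquiv.apply_symm_apply]; rfl

noncomputable def lab : ℕ → ℕ :=
  tabC 7 (ones 7) [nat_lit 0x9a99f709ee25aed503d7eb24e02c71414a23a0171ea5b4b7329b889e7ac118241f5ea0bd82e131eae29d218998686d4d994a1561950c07]

theorem reps : Reps 63 lab (cgrp ns G_C1) ModelU33.ns ModelU33.G_ss0 :=
  Reps.cons ⟨_, mem_of_wordIn (u := [18, 13, 25]) (by decide +kernel),
    repBy_of_chkLab ctx ModelU33.ctx (by decide +kernel)⟩
  (Reps.cons ⟨_, mem_of_wordIn (u := [28, 14, 20, 19]) (by decide +kernel),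
    repBy_of_chkLab ctx ModelU33.ctx (by decide +kernel)⟩ Reps.nil)

theorem inj : ∀ i < 63, ∀ j < 63, lab i = lab j → i = j :=
  reps.inj ModelU33.ctx (ps := [0]) 5 (List.forall_mem_cons.2
    ⟨sep_of_chkSepLab (by decide +kernel), fun _ h => absurd h List.not_mem_nil⟩)
    (by decide +kernel)

theorem exists_equiv : ∃ e : cgrp ns G_C1 ≃* gen ModelU33.ns ModelU33.G_ss0,
    ∀ g : cgrp ns G_C1, RepBy 63 lab (g : Equiv.Perm ℕ) (e g : Equiv.Perm ℕ) := by
  have : Finite (cgrp ns G_C1) := finite_gen ctx.ok _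
  exact reps.exists_equiv (cgrp ns G_C1).subtype inj (Subgroup.range_subtype _).ge
    (by rw [ModelU33.G_card, G_ver1.card])

theorem st0 : IsStab 128 (gen ns G_ss0) (cgrp ns G_C1) 0 G_D0 := G_eq ▸ G_st0

theorem orb36 : {i | ∃ k ∈ cgrp ns G_C1, k 1 = i}.ncard = 36 := by
  rw [show {i | ∃ k ∈ cgrp ns G_C1, k 1 = i} = ↑(mset 128 G_D1) from Set.ext G_st1.orb,
    Set.ncard_coe_finset]
  decide +kernel

theorem orb63 : {i | ∃ k ∈ cgrp ns G_C1, k (lab 0) = i}.ncard = 63 := by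
  obtain ⟨e, he⟩ := exists_equiv
  have st : IsStab 64 (gen ModelU33.ns ModelU33.G_ss0) (cgrp ModelU33.ns ModelU33.G_C1) 0
      ModelU33.G_D0 := ModelU33.G_eq ▸ ModelU33.G_st0
  have hD : mset 64 ModelU33.G_D0 = Finset.range 63 := by decide +kernel
  have : {i | ∃ k ∈ cgrp ns G_C1, k (lab 0) = i} = lab '' ↑(Finset.range 63) := by
    ext i
    constructor
    · rintro ⟨k, hk, rfl⟩
      exact ⟨_, by simpa using (he ⟨k, hk⟩).1.lt (i := 0) (by norm_num),
        ((he ⟨k, hk⟩).2 0 (by norm_num)).symm⟩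
    · rintro ⟨j, hj, rfl⟩
      obtain ⟨g, hg, rfl⟩ := (st.orb j).2 (hD ▸ hj)
      have := (he (e.symm ⟨g, hg⟩)).2 0 (by norm_num)
      rw [MulEquiv.apply_symm_apply] at this
      exact ⟨_, (e.symm ⟨g, hg⟩).2, this⟩
  rw [this, Set.InjOn.ncard_image fun i hi j hj =>
      inj i (by simpa using hi) j (by simpa using hj),
    Set.ncard_coe_finset, Finset.card_range]

/-- the subgroup of index `100` -/
noncomputable def H : Subgroup Cfsg.Spor.J2 :=
  ((cgrp ns G_C1).subgroupOf (gen ns G_ss0)).comap equiv.toMonoidHom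

theorem index_H : H.index = 100 := by
  have := finite_gen ctx.ok G_ss0
  rw [H, Subgroup.index_comap_of_surjective _ equiv.surjective, st0.index]
  decide +kernel

theorem equiv_H : Nonempty (H ≃* PSU 3 GF9 3) := by
  obtain ⟨e, -⟩ := exists_equiv
  exact ⟨((((MulEquiv.subgroupCongr (Subgroup.comap_equiv_eq_map_symm' equiv _)).trans
    (equiv.symm.subgroupMap _).symm).trans (Subgroup.subgroupOfEquivOfLe st0.le)).trans e).trans
      ModelU33.equiv.symm⟩

theorem exists_orbit {p : ℕ} (hp : p ∈ mset 128 G_D0) : ∃ c : Cfsg.Spor.J2 ⧸ H,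
    (MulAction.orbit H c).ncard = {i | ∃ k ∈ cgrp ns G_C1, k p = i}.ncard := by
  obtain ⟨g, hg, rfl⟩ := (st0.orb p).2 hp
  have := ncard_orbit_quot equiv st0 (equiv.symm ⟨g, hg⟩)
  rw [MulEquiv.apply_symm_apply] at this
  exact ⟨_, this⟩

end Cfsg.Agent.Spor.J2U33
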