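import Cfsg.Agent.Spor.O8Dat
import Cfsg.Agent.Spor.LXModel
import Cfsg.Agent.Solv.Coprime2

/-!
# Descent from Conway type to Suzuki and Hall–Janko type

In a group of Conway type there are elements `x` of order three and five such that `C(x)/⟨x⟩` has
a large extraspecial subgroup of order `2 ^ 7`, `2 ^ 5`.
-/

set_option autoImplicit false

namespace Cfsg.Agent.Spor.LXD

open Subgroup Cfsg.Agent.TT Cfsg.Agent.LES Cfsg.Agent.XSC Cfsg.Agent.Spor.O8Cent
  Cfsg.Agent.Comp.Kron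
open scoped Matrix

variable {G : Type*} [Group G] {Q : Subgroup G} {z : G}

/-- the orthogonal group -/
abbrev Om : Type := Omega (ZMod 2) (quadFormPlus 4 (ZMod 2))

/-- the matrix of an element -/
def mt : Om →* Matrix I I (ZMod 2) := (Units.coeHom _).comp (omGL _)

theorem mt_inj : Function.Injective mt := fun _ _ h =>
  Subtype.ext (Subtype.ext (Units.ext h))

theorem mt_iso (g : Om) (v : I → ZMod 2) : bPlus 4 (mt g *ᵥ v) (mt g *ᵥ v) = bPlus 4 v v :=
  g.1.2 v v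

/-- coordinates for `Q` and `C(z)/Q` -/
structure Co (Q : Subgroup G) (z : G) (e : Q ≃* ESM (bPlus 4))
    (φ : centralizer ({z} : Set G) →* Om) : Prop where
  lx : LX Q z
  surj : Function.Surjective φ
  ker : ∀ c, φ c = 1 ↔ (c : G) ∈ Q
  act : ∀ (c : centralizer ({z} : Set G)) (y y' : Q), (c : G) * y * (c : G)⁻¹ = y' →
    mt (φ c) *ᵥ (e y).v = (e y').v

theorem exists_co [Finite G] (h : LX Q z) (hQ : Nat.card Q = 2 ^ 9)
    (hC : Nat.card (centralizer ({z} : Set G)) = 89181388800) : ∃ e φ, Co Q z e φ := by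
  obtain ⟨-, ⟨⟨e⟩⟩ | ⟨⟨e⟩⟩⟩ := exists_equiv_plus_or_minus h.toXS.isExtraspecial (n := 4) hQ
  swap
  · have h1 := dvd_card_aut h
    rw [Nat.card_congr (MulAut.congr e).toEquiv] at h1
    rw [show Nat.card (MulAut (ESM (bMinus (4 - 1)))) = Nat.card (MulAut (ESM (bMinus 3))) from rfl,
      card_aut_minus 3, hC] at h1
    exact absurd h1 (by decide)
  have hβ : XS ⊤ (ESM.z (bPlus 4)) := xs_plus (by norm_num)
  let ψ : centralizer ({z} : Set G) →* isometryGroup (ZMod 2) (quadFormPlus 4 (ZMod 2)) :=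
    (ESM.toIso hβ).comp ((MulAut.congr e).toMonoidHom.comp (actC h))
  have act : ∀ (c : centralizer ({z} : Set G)) (y y' : Q), (c : G) * y * (c : G)⁻¹ = y' →
      ((ψ c : GL I (ZMod 2)) : Matrix I I (ZMod 2)) *ᵥ (e y).v = (e y').v := fun c y y' hy => by
    refine (ESM.toIso_mulVec hβ (MulAut.congr e (actC h c)) (e y)).trans ?_
    simp only [MulAut.congr_apply, MulEquiv.trans_apply, MulEquiv.symm_apply_apply]
    exact congrArg (fun t => (e t).v) (Subtype.ext hy)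
  have ez : e ⟨z, h.z_mem⟩ = ESM.z _ := by
    have := h.toXS.top.map e.toMonoidHom (fun x _ hx => by simpa using hx)
    rw [map_top_of_surjective _ e.surjective] at this
    exact this.unique hβ
  have hk : ∀ c, ψ c = 1 ↔ (c : G) ∈ Q := fun c => by
    have hc := h.norm c (mem_centralizer_singleton_iff.1 c.2)
    refine ⟨fun h1 => h.mem_of_trivial fun x hx => ?_, fun h1 => ?_⟩
    · have := act c ⟨x, hx⟩ ⟨_, hc x hx⟩ rfl
      rw [h1, OneMemClass.coe_one, Units.val_one, Matrix.one_mulVec] at this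
      rcases ESM.eq_or_of_v_eq this.symm with h2 | h2
      · exact .inl (congrArg Subtype.val (e.injective h2))
      · rw [← ez, ← map_mul] at h2
        exact .inr (congrArg Subtype.val (e.injective h2))
    · refine Subtype.ext (Units.ext (Matrix.ext_of_mulVec_single fun i => ?_))
      obtain ⟨y, hy⟩ := e.surjective ⟨Pi.single i 1, 0⟩
      have := act c y (⟨c, h1⟩ * y * (⟨c, h1⟩ : Q)⁻¹) rfl
      rw [map_mul, map_mul, map_inv, hy] at this
      rw [this, OneMemClass.coe_one, Units.val_one, Matrix.one_mulVec]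
      simp
  have h1 : Nat.card ψ.range = Nat.card Om := by
    have := ψ.ker.card_mul_index
    rw [index_ker, show ψ.ker = Q.subgroupOf _ from Subgroup.ext hk,
      Grp.card_subgroupOf_of_le (LX_le_centralizer h), hC, hQ] at this
    rw [card_Op8]; omega
  have h2 : ψ.range.index = 2 := by
    have := ψ.range.card_mul_index
    rw [h1, card_Op8, S0287.result (q := 2) (by simp) 4 (by norm_num)] at this
    simp [Finset.prod_range_succ] at this
    omega
  have h3 : Omega (ZMod 2) (quadFormPlus 4 (ZMod 2)) ≤ ψ.range := by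
    rw [Omega, _root_.commutator_def, commutator_le]
    intro a _ b _
    rw [commutatorElement_def, mul_assoc, mul_mem_iff_of_index_two h2, mul_mem_iff_of_index_two h2,
      mul_mem_iff_of_index_two h2, inv_mem_iff, inv_mem_iff]
  have h4 := eq_of_le_of_card_ge h3 h1.le
  refine ⟨e, ψ.codRestrict _ fun c => h4 ▸ ⟨c, rfl⟩, h, fun y => ?_,
    fun c => Subtype.ext_iff.trans (hk c), act⟩
  obtain ⟨c, hc⟩ := h4.le y.2
  exact ⟨c, Subtype.ext hc⟩

theorem pow_sixteen {x : G} (h : x ^ 15 = 1) : x ^ 16 = x := by rw [pow_succ, h, one_mul]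

theorem comm_of_eqv {x q : G} (hx : x ^ 15 = 1) (hz : x * z = z * x) (h2 : z * z = 1)
    (h : Eqv z (x * q * x⁻¹) q) : x * q = q * x := by
  rcases h with h | h
  · exact comm_of_conj_eq h
  have : Commute (x ^ 2) q := comm_of_conj_eq (by
    calc x ^ 2 * q * (x ^ 2)⁻¹ = x * (x * q * x⁻¹) * x⁻¹ := by rw [pow_two]; group
      _ = x * (q * z) * x⁻¹ := by rw [h]
      _ = x * q * x⁻¹ * (x * z * x⁻¹) := by group
      _ = q := by rw [h, conj_eq_of_comm hz, mul_assoc, h2, mul_one])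
  have h3 := this.pow_left 8
  rwa [← pow_mul, pow_sixteen hx] at h3

theorem eq_one_of_pow {x y : G} (hx : x ^ 15 = 1) (hy : y ∈ zpowers x) (h : y ^ 4 = 1) : y = 1 := by
  obtain ⟨k, rfl⟩ := mem_zpowers_iff.1 hy
  have : (x ^ k) ^ 15 = 1 := by
    rw [← zpow_natCast, ← zpow_mul, mul_comm, zpow_mul, zpow_natCast, hx, one_zpow]
  rw [← pow_sixteen this, show 16 = 4 * 4 from rfl, pow_mul, h, one_pow]

variable {e : Q ≃* ESM (bPlus 4)} {φ : centralizer ({z} : Set G) →* Om}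

theorem Co.ez (h : Co Q z e φ) : e ⟨z, h.lx.z_mem⟩ = ESM.z _ := by
  have := h.lx.toXS.top.map e.toMonoidHom (fun x _ hx => by simpa using hx)
  rw [map_top_of_surjective _ e.surjective] at this
  exact this.unique (xs_plus (by norm_num))

theorem Co.eqv (h : Co Q z e φ) {y y' : Q} (hy : (e y).v = (e y').v) : Eqv z y y' := by
  rcases ESM.eq_or_of_v_eq hy with h2 | h2
  · exact .inl (congrArg Subtype.val (e.injective h2))
  · rw [← h.ez, ← map_mul] at h2
    exact .inr (congrArg Subtype.val (e.injective h2))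

theorem Co.fix (h : Co Q z e φ) {x : centralizer ({z} : Set G)} (hx : (x : G) ^ 15 = 1) (y : Q) :
    (y : G) * x = x * y ↔ mt (φ x) *ᵥ (e y).v = (e y).v := by
  have hz := mem_centralizer_singleton_iff.1 x.2
  refine ⟨fun h1 => h.act x y y (conj_eq_of_comm h1.symm), fun h1 => ?_⟩
  exact (comm_of_eqv hx hz h.lx.z_sq
    (h.eqv ((h.act x y ⟨_, h.lx.norm x hz y y.2⟩ rfl).symm.trans h1))).symm

theorem Co.exists_lift (h : Co Q z e φ) {M : Om} {p : ℕ} (hp : p ∣ 15) (hM : M ^ p = 1) :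
    ∃ x, φ x = M ∧ x ^ p = 1 := by
  obtain ⟨c, rfl⟩ := h.surj M
  obtain ⟨k, hk⟩ := hp
  refine ⟨c ^ 16, by rw [map_pow, pow_sixteen (by rw [hk, pow_mul, hM, one_pow])], Subtype.ext ?_⟩
  have := h.lx.toXS.pow_four ((h.ker (c ^ p)).1 (by rw [map_pow, hM]))
  rw [← pow_mul, mul_comm, show 16 = 4 * 4 from rfl, ← mul_assoc, pow_mul, pow_mul, coe_pow, coe_pow,
    this, one_pow, coe_one]

theorem Co.card_fix (h : Co Q z e φ) {x : centralizer ({z} : Set G)} (hx : (x : G) ^ 15 = 1) :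
    Nat.card ↥(Q ⊓ centralizer {(x : G)}) = Nat.card {v // mt (φ x) *ᵥ v = v} * 2 := by
  refine Eq.trans ?_ ((Nat.card_prod {v // mt (φ x) *ᵥ v = v} (ZMod 2)).trans
    (by rw [Nat.card_zmod]))
  refine Nat.card_congr ⟨fun y => (⟨(e ⟨y, y.2.1⟩).v, (h.fix hx _).1
      (mem_centralizer_singleton_iff.1 y.2.2)⟩, (e ⟨y, y.2.1⟩).a),
    fun v => ⟨e.symm ⟨v.1, v.2⟩, (e.symm _).2, mem_centralizer_singleton_iff.2 ((h.fix hx _).2 (by
      rw [e.apply_symm_apply]; exact v.1.2))⟩, fun y => ?_, fun v => ?_⟩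
  · have := congrArg Subtype.val (e.symm_apply_apply ⟨y, y.2.1⟩)
    exact Subtype.ext this
  · simp

theorem Co.card_cent [Finite G] (h : Co Q z e φ) {x : centralizer ({z} : Set G)}
    (hx : (x : G) ^ 15 = 1) : Nat.card ↥(centralizer {z} ⊓ centralizer {(x : G)}) =
      Nat.card (centralizer {φ x}) * Nat.card ↥(Q ⊓ centralizer {(x : G)}) := by
  have hz := mem_centralizer_singleton_iff.1 x.2
  have h1 : ((centralizer {(x : G)}).subgroupOf (centralizer {z})).map φ = centralizer {φ x} := by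
    refine le_antisymm ?_ fun g hg => ?_
    · rintro _ ⟨c, hc, rfl⟩
      rw [mem_centralizer_singleton_iff, ← map_mul, ← map_mul]
      exact congrArg φ (Subtype.ext (mem_centralizer_singleton_iff.1 hc))
    obtain ⟨k, rfl⟩ := h.surj g
    obtain ⟨n, hn, h2⟩ := Solv.coprime_fixed_coset' (zpowers (x : G)) Q
      (zpowers_le.2 (h.lx.mem_normalizer hz)) (by
        obtain ⟨j, hj⟩ := h.lx.toXS.isPGroup.exists_card_eq
        rw [hj, Nat.card_zpowers]
        exact Nat.Coprime.coprime_dvd_left (orderOf_dvd_of_pow_eq_one hx)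
          (Nat.Coprime.pow_right _ (by norm_num))) (.inl inferInstance) k (by
        rintro _ ⟨j, rfl⟩
        refine (h.ker (k⁻¹ * (x ^ j * k * (x ^ j)⁻¹))).1 ?_
        have : Commute (φ k) (φ x) := mem_centralizer_singleton_iff.1 hg
        rw [map_mul, map_mul, map_mul, map_inv, map_inv, map_zpow, ← (this.zpow_right j).eq]
        group)
    rw [centralizer_zpowers_eq] at h2
    exact ⟨k * ⟨n, LX_le_centralizer h.lx hn⟩, h2, by
      rw [map_mul, (h.ker ⟨n, _⟩).2 hn, mul_one]⟩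
  have h2 := Grp.card_map_mul_card_ker_inf φ ((centralizer {(x : G)}).subgroupOf (centralizer {z}))
  rw [h1, show φ.ker = Q.subgroupOf _ from Subgroup.ext h.ker, subgroupOf, subgroupOf,
    ← comap_inf, comap_subtype, comap_subtype,
    Grp.card_subgroupOf_of_le (inf_le_left.trans (LX_le_centralizer h.lx)), Grp.card_subgroupOf,
    inf_comm _ (centralizer {z})] at h2
  exact h2.symm

theorem Co.fused [Finite G] (h : Co Q z e φ) (hQ : Nat.card Q = 2 ^ 9)
    {x : centralizer ({z} : Set G)} (hx : (x : G) ^ 15 = 1) {s : I → ZMod 2} (h0 : s ≠ 0)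
    (hs : mt (φ x) *ᵥ s = s) (qs : bPlus 4 s s = 0) {g : G} (hg : g * z * g⁻¹ ∈ Q)
    (hne : g * z * g⁻¹ ≠ z) : ∃ y : G, y * x = x * y ∧ y * z * y⁻¹ ∈ Q ∧ y * z * y⁻¹ ≠ z := by
  have hz := mem_centralizer_singleton_iff.1 x.2
  obtain ⟨k, hk⟩ := trans_sing (s := (e ⟨_, hg⟩).v) (fun h1 => by
    rcases ESM.v_eq_zero_iff.1 h1 with h2 | h2
    · exact h.lx.z_ne (by simpa using congrArg Subtype.val (e.injective (h2.trans (map_one e).symm)))
    · exact hne (congrArg Subtype.val (e.injective (h2.trans h.ez.symm)))) h0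
    (ESM.sq_eq_one_iff.1 (by
      rw [← map_mul, ← map_one e]
      exact congrArg e (Subtype.ext (h.lx.map_conj g).z_sq))) qs
  obtain ⟨c, rfl⟩ := h.surj k
  have hc := mem_centralizer_singleton_iff.1 c.2
  have e1 : (c : G) * g * z * (c * g)⁻¹ = c * (g * z * g⁻¹) * (c : G)⁻¹ := by group
  have ht : (c : G) * g * z * (c * g)⁻¹ ∈ Q := e1 ▸ h.lx.norm c hc _ hg
  have htz : (c : G) * g * z * (c * g)⁻¹ ≠ z := fun h1 => hne (by
    rw [e1, mul_inv_eq_iff_eq_mul, ← hc, mul_right_inj] at h1; exact h1)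
  have hxt : (c : G) * g * z * (c * g)⁻¹ * x = x * (c * g * z * (c * g)⁻¹) :=
    (h.fix hx ⟨_, ht⟩).2 (by rw [← h.act c ⟨_, hg⟩ ⟨_, ht⟩ e1.symm]; exact hk ▸ hs)
  have hP := h.lx.map_conj (c * g)
  have hzP := h.lx.mem_map_conj_of_noncomm ht
    (h.lx.toXS.exists_noncomm_in_centralizer (by rw [hQ]; norm_num) ht)
  generalize (c : G) * g * z * (c * g)⁻¹ = t at *
  generalize Q.map (MulAut.conj (c * g)).toMonoidHom = P at *
  obtain ⟨k, hkP, hk1⟩ := hP.toXS.exists_not_comm hzP h.lx.z_ne htz.symm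
  have n1 : zpowers (x : G) ≤ normalizer (P : Set G) := zpowers_le.2 (hP.mem_normalizer hxt.symm)
  have n2 : zpowers (x : G) ≤ centralizer {z} := zpowers_le.2 x.2
  obtain ⟨y, hy, h2⟩ := Solv.coprime_fixed_coset (zpowers (x : G)) P n1 (by
      obtain ⟨j, hj⟩ := hP.toXS.isPGroup.exists_card_eq
      rw [hj, Nat.card_zpowers]
      exact Nat.Coprime.coprime_dvd_left (orderOf_dvd_of_pow_eq_one hx)
        (Nat.Coprime.pow_right _ (by norm_num))) (.inl inferInstance) (P ⊓ centralizer {z})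
    inf_le_left (fun a ha => mem_normalizer_fintype fun b hb =>
      ⟨(mem_normalizer_iff.1 (n1 ha) b).1 hb.1, 
        (centralizer {z}).mul_mem ((centralizer {z}).mul_mem (n2 ha) hb.2) (inv_mem (n2 ha))⟩)
    k hkP (fun a ha => by
      have h3 := (mem_normalizer_iff.1 (n1 ha) k).1 hkP
      have h4 := mem_centralizer_singleton_iff.1 (n2 ha)
      refine ⟨P.mul_mem (P.inv_mem hkP) h3, mem_centralizer_singleton_iff.2
        (hP.toXS.mul_comm_of_not_comm hzP (P.inv_mem hkP) h3 (fun h5 => hk1 ?_) fun h5 => hk1 ?_)⟩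
      · exact (Commute.inv_left_iff.1 h5).symm.eq
      · calc z * k = a⁻¹ * (a * z * a⁻¹ * (a * k * a⁻¹)) * a := by group
          _ = a⁻¹ * (a * k * a⁻¹ * (a * z * a⁻¹)) * a := by rw [conj_eq_of_comm h4, h5]
          _ = k * z := by group)
  have h3 : y * z ≠ z * y := fun h4 => hk1 (by
    have := mul_mem (mem_centralizer_singleton_iff.2 h4) ((centralizer {z}).inv_mem h2.2)
    exact (mem_centralizer_singleton_iff.1 (by simpa using this)).symm)
  refine ⟨y, (hy.2 _ (mem_zpowers _)).symm, ?_, fun h4 => h3 (comm_of_conj_eq h4)⟩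
  rw [hP.toXS.conj_of_ne hy.1 hzP h3]
  exact mul_mem h.lx.z_mem ht

theorem Co.xs [Finite G] (h : Co Q z e φ) {x : centralizer ({z} : Set G)} (hx : (x : G) ^ 15 = 1)
    {p m : ℕ} (D : Dat (mt (φ x)) p m) : XS (Q ⊓ centralizer {(x : G)}) z := by
  refine ⟨⟨h.lx.z_mem, mem_centralizer_singleton_iff.2 (mem_centralizer_singleton_iff.1 x.2).symm⟩,
    h.lx.z_ne, h.lx.z_sq, fun y hy => h.lx.z_comm y hy.1,
    fun y hy w hw => h.lx.comm y hy.1 w hw.1, fun y hy hc => ?_, ?_⟩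
  · refine eqv_one_iff.1 (h.eqv (y := ⟨y, hy.1⟩) (y' := 1) ?_)
    rw [map_one]
    refine D.nd _ ((h.fix hx ⟨y, hy.1⟩).1 (mem_centralizer_singleton_iff.1 hy.2)) fun w hw => ?_
    obtain ⟨u, hu⟩ := e.surjective ⟨w, 0⟩
    have := hc u ⟨u.2, mem_centralizer_singleton_iff.2 ((h.fix hx u).2 (by rw [hu]; exact hw))⟩
    have h2 := congrArg e (Subtype.ext this : (⟨y, hy.1⟩ : Q) * u = u * ⟨y, hy.1⟩)
    rw [map_mul, map_mul, hu] at h2
    exact ESM.comm_iff.1 h2
  · obtain ⟨s, h0, hs, -⟩ := D.sing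
    obtain ⟨u, hu⟩ := e.surjective ⟨s, 0⟩
    refine ⟨u, ⟨u.2, mem_centralizer_singleton_iff.2 ((h.fix hx u).2 (by rw [hu]; exact hs))⟩,
      fun h1 => h0 ?_, fun h1 => h0 ?_⟩
    · rw [show u = 1 from Subtype.ext h1, map_one] at hu
      exact (congrArg ESM.v hu).symm
    · rw [show u = ⟨z, h.lx.z_mem⟩ from Subtype.ext h1, h.ez] at hu
      exact (congrArg ESM.v hu).symm

theorem Co.self [Finite G] (h : Co Q z e φ) {x : centralizer ({z} : Set G)} (hx : (x : G) ^ 15 = 1)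
    {p m : ℕ} (D : Dat (mt (φ x)) p m) {d : G} (hd : d * x = x * d)
    (hc : ∀ y ∈ Q ⊓ centralizer {(x : G)}, d * y = y * d) : ∃ k : ℕ, d * ((x : G) ^ k)⁻¹ ∈ Q := by
  have hz := mem_centralizer_singleton_iff.2 (hc z (h.xs hx D).z_mem)
  obtain ⟨k, hk⟩ := D.self (mt (φ ⟨d, hz⟩)) (mt_iso _) (by
    rw [← map_mul, ← map_mul, ← map_mul, ← map_mul]
    exact congrArg (fun t => mt (φ t)) (Subtype.ext hd)) fun w hw => by
      obtain ⟨u, hu⟩ := e.surjective ⟨w, 0⟩
      have := h.act ⟨d, hz⟩ u u (conj_eq_of_comm (hc u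
        ⟨u.2, mem_centralizer_singleton_iff.2 ((h.fix hx u).2 (by rw [hu]; exact hw))⟩))
      rwa [hu] at this
  rw [← map_pow] at hk
  exact ⟨k, (h.ker (⟨d, hz⟩ * (x ^ k)⁻¹)).1 (by rw [map_mul, map_inv, map_pow, mt_inj hk]; simp)⟩

theorem descent [Finite G] (hL : LX Q z) (hQ : Nat.card Q = 2 ^ 9)
    (hC : Nat.card (centralizer ({z} : Set G)) = 89181388800) {g : G} (hg : g * z * g⁻¹ ∈ Q)
    (hne : g * z * g⁻¹ ≠ z) {M : Om} {p m n : ℕ} [hp : Fact p.Prime] (h15 : p ∣ 15)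
    (D : Dat (mt M) p m) (hM : Nat.card (centralizer {M}) = n * p) :
    ∃ x : G, orderOf x = p ∧ ∀ (S : Type*) [Group S] (ψ : centralizer ({x} : Set G) →* S),
      Function.Surjective ψ → (∀ c, ψ c = 1 ↔ (c : G) ∈ zpowers x) →
        LXO.Data S (m * 2) (n * (m * 2)) := by
  obtain ⟨e, φ, h⟩ := exists_co hL hQ hC
  obtain ⟨x, rfl, hxp⟩ := h.exists_lift h15 (mt_inj ((map_pow _ _ _).trans (D.pow.trans (map_one _).symm)))
  have hxp' : (x : G) ^ p = 1 := congrArg Subtype.val hxp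
  have hx : (x : G) ^ 15 = 1 := by
    obtain ⟨k, hk⟩ := h15
    rw [hk, pow_mul, hxp', one_pow]
  have ho : orderOf (x : G) = p := orderOf_eq_prime hxp' fun h1 => D.ne (by
    rw [show x = 1 from Subtype.ext h1, map_one, map_one])
  refine ⟨x, ho, fun S _ ψ hs hk => ?_⟩
  have hX := h.xs hx D
  have lift : ∀ d q : centralizer ({(x : G)} : Set G), (q : G) ∈ Q → ψ d * ψ q = ψ q * ψ d →
      (d : G) * q = q * d := fun d q hq h1 => by
    have h2 : (q : G)⁻¹ * (d * q * (d : G)⁻¹) ∈ zpowers (x : G) := (hk (q⁻¹ * (d * q * d⁻¹))).1 (by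
      rw [map_mul, map_mul, map_mul, h1, map_inv, map_inv]; group)
    have h3 : Commute (q : G) ((q : G)⁻¹ * (d * q * (d : G)⁻¹)) := by
      obtain ⟨j, hj⟩ := mem_zpowers_iff.1 h2
      exact hj ▸ Commute.zpow_right (mem_centralizer_singleton_iff.1 q.2) j
    have h4 := h3.mul_pow 4
    rw [mul_inv_cancel_left, conj_pow, hL.toXS.pow_four hq, one_mul] at h4
    have := eq_one_of_pow hx h2 (by rw [← h4, mul_one, mul_inv_cancel])
    exact comm_of_conj_eq (inv_mul_eq_one.1 this).symm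
  have inj : ∀ q : centralizer ({(x : G)} : Set G), (q : G) ∈ Q → ψ q = 1 → q = 1 :=
    fun q hq h1 => Subtype.ext (eq_one_of_pow hx ((hk q).1 h1) (hL.toXS.pow_four hq))
  have hX' : XS (Q.subgroupOf (centralizer {(x : G)})) ⟨z, hX.z_mem.2⟩ :=
    ⟨hL.z_mem, fun h1 => hL.z_ne (congrArg Subtype.val h1), Subtype.ext hL.z_sq,
      fun y hy => Subtype.ext (hL.z_comm y hy),
      fun y hy w hw => (hL.comm y hy w hw).imp Subtype.ext Subtype.ext,
      fun y hy hc => (hX.cent y ⟨hy, y.2⟩ fun w hw =>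
        congrArg Subtype.val (hc ⟨w, hw.2⟩ hw.1)).imp Subtype.ext Subtype.ext,
      let ⟨y, hy, h1, h2⟩ := hX.nonab
      ⟨⟨y, hy.2⟩, hy.1, fun h3 => h1 (congrArg Subtype.val h3), fun h3 => h2 (congrArg Subtype.val h3)⟩⟩
  have c1 := (h.card_fix hx).trans (congrArg (· * 2) D.card)
  obtain ⟨s, h0, hs1, hs2⟩ := D.sing
  obtain ⟨y, hy, hy1, hy2⟩ := h.fused hQ hx h0 hs1 hs2 hg hne
  let y' : centralizer ({(x : G)} : Set G) := ⟨y, mem_centralizer_singleton_iff.2 hy⟩
  refine ⟨_, _, ⟨hX'.map ψ inj, fun c hc => ?_, fun c hc => ?_⟩, ?_, ?_, ψ y',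
    ⟨y' * ⟨z, hX.z_mem.2⟩ * y'⁻¹, hy1, by simp⟩, fun h1 => hy2 (conj_eq_of_comm
      (lift y' ⟨z, hX.z_mem.2⟩ hL.z_mem (comm_of_conj_eq h1)))⟩
  · obtain ⟨d, rfl⟩ := hs c
    obtain ⟨k, h1⟩ := h.self hx D (mem_centralizer_singleton_iff.1 d.2) fun w hw =>
      lift d ⟨w, hw.2⟩ hw.1 (hc _ (mem_map_of_mem ψ (x := ⟨w, hw.2⟩) hw.1)).symm
    let x' : centralizer ({(x : G)} : Set G) := ⟨x, mem_centralizer_singleton_iff.2 rfl⟩
    exact ⟨d * (x' ^ k)⁻¹, h1, by
      rw [map_mul, map_inv, map_pow, (hk x').2 (mem_zpowers _), one_pow, inv_one, mul_one]⟩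
  · obtain ⟨d, rfl⟩ := hs c
    rintro _ ⟨q, hq, rfl⟩
    exact ⟨d * q * d⁻¹, hL.norm d (lift d _ hL.z_mem hc) q hq, by simp⟩
  · have := Grp.card_map_mul_card_ker_inf ψ (Q.subgroupOf (centralizer {(x : G)}))
    rw [show ψ.ker ⊓ Q.subgroupOf _ = ⊥ from eq_bot_iff.2 fun q hq => inj q hq.2 hq.1, card_bot,
      mul_one, Grp.card_subgroupOf, c1] at this
    exact this
  · have h1 : ((centralizer {z}).subgroupOf (centralizer {(x : G)})).map ψ =
        centralizer {ψ ⟨z, hX.z_mem.2⟩} := by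
      ext c
      obtain ⟨d, rfl⟩ := hs c
      rw [mem_centralizer_singleton_iff]
      refine ⟨?_, fun h1 => mem_map_of_mem ψ
        (mem_centralizer_singleton_iff.2 (lift d _ hL.z_mem h1))⟩
      rintro ⟨c, hc, h1⟩
      rw [← h1, ← map_mul, ← map_mul]
      exact congrArg ψ (Subtype.ext (mem_centralizer_singleton_iff.1 hc))
    have h2 := Grp.card_map_mul_card_ker_inf ψ ((centralizer {z}).subgroupOf (centralizer {(x : G)}))
    have h3 : ψ.ker = (zpowers (x : G)).subgroupOf _ := Subgroup.ext hk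
    have h4 : ψ.ker ≤ (centralizer {z}).subgroupOf _ := h3.le.trans (comap_mono (zpowers_le.2 x.2))
    rw [h1, inf_of_le_left h4, h3,
      Grp.card_subgroupOf_of_le (zpowers_le.2 (mem_centralizer_singleton_iff.2 rfl)),
      Nat.card_zpowers, ho, Grp.card_subgroupOf, h.card_cent hx, hM, c1, mul_right_comm] at h2
    exact Nat.eq_of_mul_eq_mul_right hp.out.pos h2

end Cfsg.Agent.Spor.LXD
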