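import Cfsg.Agent.Comp.BNBridge
import Cfsg.Agent.Spor.Fi.Even24

set_option autoImplicit false
set_option Elab.async false

namespace Cfsg.Agent.Spor.ModelFi24

open Cfsg.Agent.Comp

noncomputable def ns_0 : Net := ofBN FiC.M24.net0

noncomputable def ns_1 : Net := ofBN FiC.M24.net1

noncomputable def ns_2 : Net := ofBN FiC.M24.net2

noncomputable def ns_3 : Net := ofBN FiC.M24.net3

noncomputable def ns_4 : Net := ofBN FiC.M24.net4

noncomputable def ns_5 : Net := ofBN FiC.M24.net5

noncomputable def ns_6 : Net := ofBN FiC.M24.net6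

noncomputable def ns_7 : Net := ofBN FiC.M24.net7

noncomputable def ns_8 : Net := ofBN FiC.M24.net8

noncomputable def ns_9 : Net := ofBN FiC.M24.net9

noncomputable def ns_10 : Net := ofBN FiC.M24.net10

noncomputable def ns_11 : Net := ofBN FiC.M24.net11

noncomputable def ns : List Net := [ns_0, ns_1, ns_2, ns_3, ns_4, ns_5, ns_6, ns_7, ns_8, ns_9, ns_10, ns_11]

theorem ctx : Ctx 524288 19 ns := ctx_of (by decide +kernel)

noncomputable def G_ss0 : List (List ℕ) := [[0], [2], [4], [6], [8], [10], [12], [14], [16], [18], [20], [22]]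

noncomputable def equiv : Cfsg.Spor.Fi24 ≃* gen ns G_ss0 :=
  equivOfPModel FiC.M24.model rfl rfl

theorem coe_equiv (g : Cfsg.Spor.Fi24) : (equiv g : Equiv.Perm ℕ) = FiC.M24.ρ g := rfl

theorem G_card : Nat.card (gen ns G_ss0) = 2510411418381323442585600 :=
  (Nat.card_congr equiv.toEquiv).symm.trans FiC.M24.card

theorem supp0 : Supp 306936 (wp ns [0]) := supp_of_suppW ctx (by decide +kernel)

theorem supp1 : Supp 306936 (wp ns [2]) := supp_of_suppW ctx (by decide +kernel)

theorem supp2 : Supp 306936 (wp ns [4]) := supp_of_suppW ctx (by decide +kernel)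

theorem supp3 : Supp 306936 (wp ns [6]) := supp_of_suppW ctx (by decide +kernel)

theorem supp4 : Supp 306936 (wp ns [8]) := supp_of_suppW ctx (by decide +kernel)

theorem supp5 : Supp 306936 (wp ns [10]) := supp_of_suppW ctx (by decide +kernel)

theorem supp6 : Supp 306936 (wp ns [12]) := supp_of_suppW ctx (by decide +kernel)

theorem supp7 : Supp 306936 (wp ns [14]) := supp_of_suppW ctx (by decide +kernel)

theorem supp8 : Supp 306936 (wp ns [16]) := supp_of_suppW ctx (by decide +kernel)

theorem supp9 : Supp 306936 (wp ns [18]) := supp_of_suppW ctx (by decide +kernel)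

theorem supp10 : Supp 306936 (wp ns [20]) := supp_of_suppW ctx (by decide +kernel)

theorem supp11 : Supp 306936 (wp ns [22]) := supp_of_suppW ctx (by decide +kernel)

theorem G_supp : gen ns G_ss0 ≤ suppSub 306936 := gen_le_iff.2 (by
  simp only [G_ss0, List.forall_mem_cons]
  exact ⟨supp0, supp1, supp2, supp3, supp4, supp5, supp6, supp7, supp8, supp9, supp10, supp11, fun _ h => absurd h List.not_mem_nil⟩)

theorem lp_eq (k : ℕ) : wp ns [2 * k] = FiC.M24.π k := by
  rw [wp_cons, wp_nil, mul_one]; exact lp_map_ofBN FiC.M24.nets k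

/-- The generators are involutions. -/
theorem wp_odd (k : ℕ) (hk : k < 12) : wp ns [2 * k + 1] = wp ns [2 * k] := by
  have h1 := FiC.M24.model.satπ.inv k
  have h2 : FiC.P24.I k = k := by interval_cases k <;> rfl
  have h3 : wp ns [2 * k + 1] = (wp ns [2 * k])⁻¹ := by
    rw [wp_cons, wp_cons, wp_nil, mul_one, mul_one, Comp.lp, Comp.lp, if_neg (by omega), if_pos (by omega),
      show (2 * k + 1) / 2 = 2 * k / 2 by omega]
  rw [h3, lp_eq, inv_eq_iff_mul_eq_one]
  rwa [h2] at h1

/-- Generators of the commutator subgroup. -/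
noncomputable def E_ss0 : List (List ℕ) := [[0, 2], [2, 0], [0, 4], [0, 6], [0, 8], [0, 10],
  [0, 12], [0, 14], [0, 16], [0, 18], [0, 20], [0, 22]]

theorem map_comm : (commutator Cfsg.Spor.Fi24).map FiC.M24.ρ = gen ns E_ss0 := by
  have h1 : ∀ u : List ℕ, BN.ev FiC.M24.π u = wp ns (u.map (2 * ·)) := fun u => by
    induction u with
    | nil => rfl
    | cons a u ih => rw [BN.ev_cons, List.map_cons, wp_cons, ih, ← lp_eq]; simp
  have h2 : E_ss0 = FiC.M24.es.map (List.map (2 * ·)) := rfl
  rw [FiC.M24.commE, BN.map_gen, h2]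
  simp only [BN.map_subT, FiC.M24.model.map]
  apply le_antisymm
  · refine BN.gen_le fun k => ?_
    by_cases hk : k < FiC.M24.es.length
    · rw [BN.subT, h1]
      exact wp_mem_gen ns (List.mem_map_of_mem (BN.nth_mem _ _ _ hk))
    · rw [BN.PModel.subT_out _ _ _ (not_lt.1 hk)]; exact one_mem _
  · refine gen_le_iff.2 fun u hu => ?_
    obtain ⟨v, hv, rfl⟩ := List.mem_map.1 hu
    obtain ⟨k, -, hk⟩ := BN.exists_nth_of_mem [] _ _ hv
    rw [← h1, ← hk]
    exact BN.mem_gen (BN.subT FiC.M24.π FiC.M24.es) k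

/-- The permutation model of the simple group. -/
noncomputable def equivE : Cfsg.Spor.Fi24' ≃* gen ns E_ss0 :=
  (Subgroup.equivMapOfInjective _ _ FiC.M24.model.injective).trans
    (MulEquiv.subgroupCongr map_comm)

theorem E_card : Nat.card (gen ns E_ss0) = 1255205709190661721292800 := by
  rw [← Nat.card_congr equivE.toEquiv, ← FiC.M24.cardE, ← FiC.M24.commE]

end Cfsg.Agent.Spor.ModelFi24
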