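import Cfsg.Prelude.Def_SporadicCombinatorics
import Cfsg.Agent.Perm.MultTrans

/-!
Monomial automorphisms of a linear code: the group of permutation parts and the number of
monomial automorphisms.
-/

set_option autoImplicit false

namespace Cfsg.Agent.Spor

open Cfsg

/-- Multiple transitivity from a base and transversals. -/
theorem multTrans_of_base {G α : Type*} [Group G] [MulAction G α] (P : Subgroup G) (k : ℕ)
    (b : ℕ → α)
    (h : ∀ i < k, ∀ y, (∀ j < i, y ≠ b j) → ∃ g ∈ P, (∀ j < i, g • b j = b j) ∧ g • b i = y) :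
    MulAction.IsMultiplyPretransitive P α k := by
  have key : ∀ n ≤ k, ∀ x : ℕ → α, (∀ i < n, ∀ j < i, x i ≠ x j) →
      ∃ g ∈ P, ∀ j < n, g • b j = x j := by
    intro n hn x hx
    induction n with
    | zero => exact ⟨1, P.one_mem, fun j hj => by omega⟩
    | succ n ih =>
      obtain ⟨g, hg, e⟩ := ih (by omega) fun i hi => hx i (by omega)
      obtain ⟨u, hu, e1, e2⟩ := h n (by omega) (g⁻¹ • x n) fun j hj e' =>
        hx n (by omega) j hj (by rw [← e j hj, ← e', smul_inv_smul])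
      refine ⟨g * u, P.mul_mem hg hu, fun j hj => ?_⟩
      rcases Nat.lt_succ_iff_lt_or_eq.1 hj with hj | rfl
      · rw [mul_smul, e1 j hj, e j hj]
      · rw [mul_smul, e2, smul_inv_smul]
  have key2 : ∀ x : Fin k → α, Function.Injective x → ∃ g ∈ P, ∀ j : Fin k, g • b j = x j := by
    intro x hx
    obtain ⟨g, hg, e⟩ := key k le_rfl (fun i => if hi : i < k then x ⟨i, hi⟩ else b i)
      fun i hi j hj e => by
        rw [dif_pos hi, dif_pos (hj.trans hi)] at e
        exact hj.ne' (congrArg Fin.val (hx e))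
    exact ⟨g, hg, fun j => by rw [e j j.2, dif_pos j.2]⟩
  rw [Perm.multTrans_subgroup_iff]
  intro x y hx hy
  obtain ⟨g, hg, e⟩ := key2 x hx
  obtain ⟨g', hg', e'⟩ := key2 y hy
  exact ⟨g' * g⁻¹, P.mul_mem hg' (P.inv_mem hg), fun i => by
    rw [mul_smul, ← e i, inv_smul_smul, e' i]⟩

variable {α F : Type*} [Field F]

theorem monomialMap_comp (σ τ : Equiv.Perm α) (c d : α → Fˣ) (x : α → F) :
    monomialMap σ c (monomialMap τ d x) = monomialMap (σ * τ) (fun i => c i * d (σ.symm i)) x := by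
  funext i
  simp [monomialMap, mul_assoc, Equiv.Perm.mul_def]

theorem monomialMap_injective (σ : Equiv.Perm α) (c : α → Fˣ) :
    Function.Injective (monomialMap σ c) := fun x y e => funext fun i => by
  have := congrFun e (σ i)
  simpa [monomialMap] using this

theorem monomialMap_surj [Finite α] [Finite F] {C : Submodule F (α → F)} {σ : Equiv.Perm α}
    {c : α → Fˣ} (h : ∀ x ∈ C, monomialMap σ c x ∈ C) {y : α → F} (hy : y ∈ C) :
    ∃ x ∈ C, monomialMap σ c x = y :=
  ((Set.toFinite (C : Set (α → F))).injOn_iff_bijOn_of_mapsTo h).1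
    (monomialMap_injective σ c).injOn |>.surjOn hy

/-- The permutation parts of the monomial automorphisms of a code. -/
def monoPerms [Finite α] [Finite F] (C : Submodule F (α → F)) : Subgroup (Equiv.Perm α) where
  carrier := {σ | ∃ c : α → Fˣ, ∀ x ∈ C, monomialMap σ c x ∈ C}
  one_mem' := ⟨1, fun x hx => by
    have : monomialMap 1 (1 : α → Fˣ) x = x := by funext i; simp [monomialMap, Equiv.Perm.one_def]
    rwa [this]⟩
  mul_mem' := fun {σ τ} ⟨c, hc⟩ ⟨d, hd⟩ => ⟨_, fun x hx => by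
    rw [← monomialMap_comp]; exact hc _ (hd x hx)⟩
  inv_mem' := fun {σ} ⟨c, hc⟩ => ⟨fun i => (c (σ i))⁻¹, fun y hy => by
    obtain ⟨x, hx, rfl⟩ := monomialMap_surj hc hy
    have : monomialMap σ⁻¹ (fun i => (c (σ i))⁻¹) (monomialMap σ c x) = x := by
      funext i; simp [monomialMap, Equiv.Perm.inv_def]
    rwa [this]⟩

theorem mem_monoPerms [Finite α] [Finite F] {C : Submodule F (α → F)} {σ : Equiv.Perm α} :
    σ ∈ monoPerms C ↔ ∃ c : α → Fˣ, ∀ x ∈ C, monomialMap σ c x ∈ C := Iff.rfl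

theorem exists_monoPerms [Finite α] [Finite F] {C : Submodule F (α → F)} (τ : α → α)
    (hτ : Function.Injective τ) (c : α → F) (hc : ∀ i, c i ≠ 0)
    (h : ∀ x ∈ C, (fun i => c i * x (τ i)) ∈ C) : ∃ σ ∈ monoPerms C, ∀ i, σ i = τ i := by
  let e := Equiv.ofBijective τ hτ.bijective_of_finite
  exact ⟨e, (inv_mem_iff (H := monoPerms C)).1 ⟨fun i => Units.mk0 (c i) (hc i), h⟩, fun _ => rfl⟩

/-- If the diagonal automorphisms are scalars, each permutation part has `|Fˣ|` lifts. -/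
theorem card_monomial [Finite α] [Nonempty α] [Finite F] {C : Submodule F (α → F)}
    (hdiag : ∀ c : α → Fˣ, (∀ x ∈ C, monomialMap 1 c x ∈ C) → ∀ i j, c i = c j) :
    Nat.card {f : Equiv.Perm α × (α → Fˣ) // ∀ x ∈ C, monomialMap f.1 f.2 x ∈ C} =
      Nat.card (monoPerms C) * Nat.card Fˣ := by
  choose c₀ hc₀ using fun σ : monoPerms C => mem_monoPerms.1 σ.2
  rw [← Nat.card_prod]
  symm
  refine Nat.card_congr (Equiv.ofBijective (fun p => ⟨(p.1, fun i => p.2 * c₀ p.1 i),
    fun x hx => ?_⟩) ⟨?_, ?_⟩)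
  · have : monomialMap (p.1 : Equiv.Perm α) (fun i => p.2 * c₀ p.1 i) x =
        (p.2 : F) • monomialMap (p.1 : Equiv.Perm α) (c₀ p.1) x := by
      funext i; simp [monomialMap, mul_assoc]
    rw [this]; exact C.smul_mem _ (hc₀ _ x hx)
  · rintro ⟨σ, a⟩ ⟨τ, b⟩ e
    simp only [Subtype.mk.injEq, Prod.mk.injEq] at e
    obtain rfl : σ = τ := Subtype.ext e.1
    obtain ⟨i⟩ := ‹Nonempty α›
    rw [mul_right_cancel (congrFun e.2 i)]
  · rintro ⟨⟨σ, c⟩, h⟩
    obtain ⟨i₀⟩ := ‹Nonempty α›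
    let s : monoPerms C := ⟨σ, c, h⟩
    have := hdiag (fun i => c i * (c₀ s i)⁻¹) fun y hy => by
      obtain ⟨x, hx, rfl⟩ := monomialMap_surj (hc₀ s) hy
      have : monomialMap 1 (fun i => c i * (c₀ s i)⁻¹) (monomialMap (s : Equiv.Perm α) (c₀ s) x) =
          monomialMap σ c x := by
        funext i; simp [monomialMap, s, Equiv.Perm.one_def, mul_assoc]
      rw [this]; exact h x hx
    refine ⟨(s, c i₀ * (c₀ s i₀)⁻¹), Subtype.ext (Prod.ext rfl (funext fun i => ?_))⟩
    show c i₀ * (c₀ s i₀)⁻¹ * c₀ s i = c i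
    rw [this i₀ i, inv_mul_cancel_right]

end Cfsg.Agent.Spor
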