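import Cfsg.Agent.Spor.O8Cent
import Cfsg.Agent.TT.ESType
import Cfsg.Agent.Class.Orth.OmegaCrit
import Cfsg.Agent.Class.Orth.Levi

/-! Elements of order three and five of the orthogonal group of plus type in dimension eight over
the field with two elements whose fixed spaces are of minus type. -/

set_option autoImplicit false

namespace Cfsg.Agent.Spor.O8Cent

open Cfsg.Agent.TT Cfsg.Agent.Class Cfsg.Agent.Comp Cfsg.Agent.Comp.Kron Matrix

/-- the index set -/
abbrev I : Type := Fin 4 ⊕ Fin 4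

/-- the vector with a given code -/
def vec (n : ℕ) : I → ZMod 2 := fun a => if n.testBit (ModelO8p.qx a) then 1 else 0

theorem vec_xor (a b : ℕ) : vec (a ^^^ b) = vec a + vec b := by
  funext i
  simp only [vec, Nat.testBit_xor, Pi.add_apply]
  cases a.testBit _ <;> cases b.testBit _ <;> decide

theorem vec_bij : Function.Bijective fun n : Fin 256 => vec n := by
  refine (Fintype.bijective_iff_injective_and_card _).2 ⟨fun x y h => Fin.ext ?_, by simp⟩
  refine Nat.eq_of_testBit_eq fun i => ?_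
  by_cases hi : i < 8
  · have := congrFun h (ModelO8p.ix i)
    have e : ∀ i < 8, ModelO8p.qx (ModelO8p.ix i) = i := by decide
    simp only [vec, e i hi] at this
    revert this
    cases x.1.testBit i <;> cases y.1.testBit i <;> decide
  · have h1 : 256 ≤ 2 ^ i := (Nat.pow_le_pow_right two_pos (not_lt.1 hi) : 2 ^ 8 ≤ 2 ^ i)
    rw [Nat.testBit_lt_two_pow (x.2.trans_le h1), Nat.testBit_lt_two_pow (y.2.trans_le h1)]

theorem vec_surj (v : I → ZMod 2) : ∃ n < 256, vec n = v :=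
  let ⟨n, h⟩ := vec_bij.2 v
  ⟨n, n.2, h⟩

/-- the facts on the action of `M` on vectors -/
structure Dat (M : Matrix I I (ZMod 2)) (p m : ℕ) : Prop where
  pow : M ^ p = 1
  ne : M ≠ 1
  card : Nat.card {v // M *ᵥ v = v} = m
  nd : ∀ v, M *ᵥ v = v → (∀ w, M *ᵥ w = w → bPlus 4 v w = bPlus 4 w v) → v = 0
  self : ∀ g : Matrix I I (ZMod 2), (∀ v, bPlus 4 (g *ᵥ v) (g *ᵥ v) = bPlus 4 v v) →
    g * M = M * g → (∀ w, M *ᵥ w = w → g *ᵥ w = w) → ∃ k, g = M ^ k
  sing : ∃ s, s ≠ 0 ∧ M *ᵥ s = s ∧ bPlus 4 s s = 0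

/-- the test for the orbit of `u` -/
def Tst (M : Matrix I I (ZMod 2)) (bas : List ℕ) (v : I → ZMod 2) : Prop :=
  (∀ w ∈ bas, bPlus 4 v (vec w) + bPlus 4 (vec w) v = 0) ∧ bPlus 4 v v = 1 ∧
    bPlus 4 v (M *ᵥ v) + bPlus 4 (M *ᵥ v) v = 1

instance (M : Matrix I I (ZMod 2)) (bas : List ℕ) (v : I → ZMod 2) : Decidable (Tst M bas v) := by
  unfold Tst; infer_instance

theorem dat_of {M : Matrix I I (ZMod 2)} {p m : ℕ} (bas us : List ℕ) (cs : List (List ℕ))
    (h1 : M ^ p = 1) (h1' : M ≠ 1)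
    (h2 : (Finset.univ.filter fun n : Fin 256 => M *ᵥ vec n = vec n).card = m)
    (h3 : ∀ w ∈ bas, M *ᵥ vec w = vec w)
    (h4 : ∀ n < 256, M *ᵥ vec n = vec n →
      (∀ w ∈ bas, bPlus 4 (vec n) (vec w) = bPlus 4 (vec w) (vec n)) → vec n = 0)
    (h5 : ∀ n < 256, Tst M bas (vec n) → ∃ k < p, n = us.getD k 0)
    (h6 : ∀ k < p, M *ᵥ vec (us.getD k 0) = vec (us.getD (k + 1) 0))
    (h7 : Tst M bas (vec (us.getD 0 0)))
    (h8 : ∀ a : I, (cs.getD (ModelO8p.qx a) []).foldr (· ^^^ ·) 0 = 2 ^ ModelO8p.qx a ∧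
      ∀ c ∈ cs.getD (ModelO8p.qx a) [], c ∈ bas ∨ ∃ k < p, c = us.getD k 0)
    (h9 : vec 2 ≠ 0 ∧ M *ᵥ vec 2 = vec 2 ∧ bPlus 4 (vec 2) (vec 2) = 0) : Dat M p m := by
  refine ⟨h1, h1', ?_, fun v hv h => ?_, fun g hg hc hf => ?_, _, h9⟩
  · rw [← h2, ← Fintype.card_subtype, ← Nat.card_eq_fintype_card]
    exact Nat.card_congr ((Equiv.ofBijective _ vec_bij).subtypeEquiv fun _ => Iff.rfl).symm
  · obtain ⟨n, hn, rfl⟩ := vec_surj v
    exact h4 n hn hv fun w hw => h _ (h3 w hw)
  have hk : ∀ k ≤ p, (M ^ k) *ᵥ vec (us.getD 0 0) = vec (us.getD k 0) := fun k hk => by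
    induction k with
    | zero => simp
    | succ k ih => rw [pow_succ', ← mulVec_mulVec, ih (by omega), h6 k hk]
  obtain ⟨n, hn, e⟩ := vec_surj (g *ᵥ vec (us.getD 0 0))
  obtain ⟨k, hkp, rfl⟩ := h5 n hn (by
    rw [e]
    refine ⟨fun w hw => ?_, by rw [hg]; exact h7.2.1, ?_⟩
    · rw [← hf _ (h3 w hw), ESM.polar_of_isometry hg]; exact h7.1 w hw
    · rw [mulVec_mulVec, ← hc, ← mulVec_mulVec, ESM.polar_of_isometry hg]; exact h7.2.2)
  have key : ∀ l : List ℕ, (∀ c ∈ l, c ∈ bas ∨ ∃ k < p, c = us.getD k 0) →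
      g *ᵥ vec (l.foldr (· ^^^ ·) 0) = (M ^ k) *ᵥ vec (l.foldr (· ^^^ ·) 0) := fun l hl => by
    induction l with
    | nil =>
      have : vec 0 = 0 := by decide
      simp [this]
    | cons c l ih =>
      rw [List.foldr_cons, vec_xor, mulVec_add, mulVec_add, ih fun c hc => hl c (.tail _ hc)]
      congr 1
      rcases hl c (.head _) with h | ⟨j, hj, rfl⟩
      · rw [hf _ (h3 c h)]
        clear * - h h3
        induction k with
        | zero => simp
        | succ k ih => rw [pow_succ, ← mulVec_mulVec, h3 c h, ← ih]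
      · rw [← hk j hj.le, mulVec_mulVec, (Commute.pow_right hc j).eq, ← mulVec_mulVec, ← e,
          ← hk k hkp.le, mulVec_mulVec, mulVec_mulVec, pow_mul_comm]
  refine ⟨k, Matrix.ext fun a b => ?_⟩
  have := key _ (h8 b).2
  have e2 : ∀ b : I, vec (2 ^ ModelO8p.qx b) = Pi.single b 1 := by decide +kernel
  rw [(h8 b).1, e2, mulVec_single_one, mulVec_single_one] at this
  exact congrFun this a

theorem dat3 : Dat (mat M3) 3 64 :=
  dat_of [2, 4, 25, 32, 64, 136] [17, 152, 137, 17]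
    [[136, 17, 152], [2], [4], [25, 17], [136, 152], [32], [64], [25, 136, 17]]
    (by simp only [pow_succ, pow_zero, one_mul]; decide +kernel) (by decide +kernel)
    (by decide +kernel) (by decide +kernel) (by decide +kernel) (by decide +kernel)
    (by decide +kernel) (by decide +kernel) (by decide +kernel) (by decide +kernel)

theorem dat5 : Dat (mat M5) 5 16 :=
  dat_of [2, 32, 68, 140] [17, 152, 196, 136, 197, 17]
    [[17, 152, 136], [2], [140, 136], [68, 196, 136], [152, 136], [32], [68, 140, 136], [68, 196]]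
    (by simp only [pow_succ, pow_zero, one_mul]; decide +kernel) (by decide +kernel)
    (by decide +kernel) (by decide +kernel) (by decide +kernel) (by decide +kernel)
    (by decide +kernel) (by decide +kernel) (by decide +kernel) (by decide +kernel)

/-- transitivity on the singular vectors -/
theorem trans_sing {s t : I → ZMod 2} (hs : s ≠ 0) (ht : t ≠ 0) (qs : bPlus 4 s s = 0)
    (qt : bPlus 4 t t = 0) : ∃ g : Omega (ZMod 2) (quadFormPlus 4 (ZMod 2)),
      ((omGL _ g : GL _ _) : Matrix I I (ZMod 2)) *ᵥ s = t := by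
  obtain ⟨g, hg, e⟩ := Orth.exists_Omega_map_of_omap (Orth.plusQF 4 (ZMod 2)) _
    (Orth.plusQF_apply 4 (ZMod 2)) (Orth.exists_commutator_omap_TS (Orth.nd_plusQF 4 _)
      (Orth.reflGen_plus (.inr (by norm_num)))
      (Orth.ts_span_singleton ((Orth.plusQF_apply 4 _ s).trans qs))
      (Orth.ts_span_singleton ((Orth.plusQF_apply 4 _ t).trans qt))
      (by rw [finrank_span_singleton hs, finrank_span_singleton ht])
      (by rw [finrank_span_singleton hs]; simp))
  refine ⟨⟨g, hg⟩, ?_⟩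
  rw [Submodule.map_span, Set.image_singleton] at e
  obtain ⟨c, hc⟩ := Submodule.mem_span_singleton.1 (e.ge (Submodule.mem_span_singleton_self t))
  rcases zmod_two_cases c with rfl | rfl
  · exact absurd (by simpa using hc.symm) ht
  · rw [one_smul] at hc; exact hc

end Cfsg.Agent.Spor.O8Cent
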