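import Cfsg.Agent.Spor.ModelRu

/-! The scalar `-1` is a commutator in the automorphism group of the Rudvalis lattice. -/

set_option autoImplicit false

namespace Cfsg.Agent.Spor.RuL

open Cfsg.Spor Finset
open scoped commutatorElement

theorem norm_gI_mul (z : GaussianInt) : (gI * z).norm = z.norm := by
  rw [Zsqrtd.norm_mul, show gI.norm = 1 by decide, one_mul]

theorem gI_gI (z : GaussianInt) : gI * (gI * z) = -z := by
  rw [← mul_assoc, show gI * gI = -1 by decide, neg_one_mul]

theorem exists_unit (a : ℕ) (h1 : ∀ x, mp a (mp a x) = -x) (h2 : ∀ x, mp a (gI • x) = gI • mp a x)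
    (h3 : ∀ x, ruNorm (mp a x) = ruNorm x) :
    ∃ g : fourRu, ∀ x : ruLattice, ((g • x : ruLattice) : RuVec) = mp a x :=
  ⟨⟨⟨fun x => ⟨mp a x, mp_mem a x.2⟩, fun x => -⟨mp a x, mp_mem a x.2⟩, fun x => Subtype.ext (by
      change -(mp a (mp a x)) = x
      rw [h1, neg_neg]), fun x => Subtype.ext (by
      change AddMonoidHom.mk' (mp a) (mp_add a) (-(mp a x)) = x
      rw [map_neg]
      change -(mp a (mp a x)) = x
      rw [h1, neg_neg])⟩, fun x y => Subtype.ext (mp_add a _ _), fun x => Subtype.ext (h2 _),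
    fun x => h3 _⟩, fun _ => rfl⟩

theorem exists_j : ∃ g : fourRu, ∀ x : ruLattice, ((g • x : ruLattice) : RuVec) = ruRj x := by
  refine exists_unit 1 (fun x => ?_) (fun x => ?_) fun x => ?_
  · change ruRj (ruRj x) = -x
    funext ⟨n, t⟩; fin_cases t <;> simp [ruRj, gI_gI]
  · change ruRj (gI • x) = gI • ruRj x
    funext ⟨n, t⟩; fin_cases t <;> simp [ruRj]
  · change ruNorm (ruRj x) = _
    simp only [ruNorm, Fintype.sum_prod_type, Fin.sum_univ_four, ruRj, norm_gI_mul, Zsqrtd.norm_neg]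
    exact sum_congr rfl fun _ _ => by ring

theorem exists_k : ∃ g : fourRu, ∀ x : ruLattice, ((g • x : ruLattice) : RuVec) = ruRk x := by
  refine exists_unit 2 (fun x => ?_) (fun x => ?_) fun x => ?_
  · change ruRk (ruRk x) = -x
    funext ⟨n, t⟩; fin_cases t <;> simp [ruRk, gI_gI]
  · change ruRk (gI • x) = gI • ruRk x
    funext ⟨n, t⟩; fin_cases t <;> simp [ruRk]
  · change ruNorm (ruRk x) = _
    simp only [ruNorm, Fintype.sum_prod_type, Fin.sum_univ_four, ruRk, norm_gI_mul, Zsqrtd.norm_neg]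
    exact sum_congr rfl fun _ _ => by ring

/-- The central involution `-1` is a commutator. -/
theorem exists_commutator : ∃ g h : fourRu, ⁅g, h⁆ = iota ^ 2 := by
  obtain ⟨g, hg⟩ := exists_j
  obtain ⟨h, hh⟩ := exists_k
  refine ⟨g, h, ?_⟩
  rw [commutatorElement_def, mul_inv_eq_iff_eq_mul, mul_inv_eq_iff_eq_mul]
  refine Subtype.ext (Equiv.ext fun x => Subtype.ext ?_)
  change (((g * h) • x : ruLattice) : RuVec) = ((iota ^ 2 * h * g) • x : ruLattice)
  rw [mul_smul, mul_smul, mul_smul, coe_iota_pow, pow_two, mul_smul, I_I, hg, hh, hh, hg]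
  funext ⟨n, t⟩; fin_cases t <;> simp [ruRj, ruRk, gI_gI]

theorem iota_sq_mem_commutator : iota ^ 2 ∈ commutator fourRu := by
  obtain ⟨g, h, e⟩ := exists_commutator
  exact e ▸ Subgroup.commutator_mem_commutator (Subgroup.mem_top g) (Subgroup.mem_top h)

theorem orderOf_iota_sq : orderOf (iota ^ 2) = 2 := by
  rw [orderOf_pow' _ (by norm_num), orderOf_iota]; rfl

theorem iota_sq_mem_center : iota ^ 2 ∈ Subgroup.center fourRu :=
  ZZ_le_center (Subgroup.npow_mem_zpowers iota 2)

end Cfsg.Agent.Spor.RuL
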