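import Mathlib

/-! Poisson summation for Gaussians attached to a positive definite real quadratic form,
proved by induction on the rank from the one-variable formula. -/

set_option autoImplicit false
open Matrix Complex Real Filter Asymptotics

namespace Cfsg.Agent.Spor.Theta

/-- The value of the quadratic form of `A` at `x`. -/
def qf {n : ℕ} (A : Matrix (Fin n) (Fin n) ℝ) (x : Fin n → ℝ) : ℝ := x ⬝ᵥ A *ᵥ x

/-- An integer vector as a real vector. -/
def ic {n : ℕ} (x : Fin n → ℤ) : Fin n → ℝ := fun i => (x i : ℝ)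

theorem qf_smul {n : ℕ} (A : Matrix (Fin n) (Fin n) ℝ) (c : ℝ) (x : Fin n → ℝ) :
    qf A (c • x) = c ^ 2 * qf A x := by
  simp only [qf, mulVec_smul, dotProduct_smul, smul_dotProduct, smul_eq_mul]; ring

theorem continuous_qf {n : ℕ} (A : Matrix (Fin n) (Fin n) ℝ) : Continuous (qf A) := by
  unfold qf
  fun_prop

theorem coercive {n : ℕ} (A : Matrix (Fin n) (Fin n) ℝ) (hA : ∀ x, x ≠ 0 → 0 < qf A x) :
    ∃ ε : ℝ, 0 < ε ∧ ∀ x, ε * ∑ i, x i ^ 2 ≤ qf A x := by
  rcases Nat.eq_zero_or_pos n with rfl | hn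
  · exact ⟨1, one_pos, fun x => by simp [qf, dotProduct]⟩
  haveI : Nonempty (Fin n) := ⟨⟨0, hn⟩⟩
  have hne : (Metric.sphere (0 : Fin n → ℝ) 1).Nonempty :=
    ⟨fun _ => 1, by simp⟩
  obtain ⟨x0, hx0, hmin⟩ := (isCompact_sphere (0 : Fin n → ℝ) 1).exists_isMinOn hne
    (continuous_qf A).continuousOn
  have hx0' : ‖x0‖ = 1 := by simpa using hx0
  have hm : 0 < qf A x0 := hA x0 (by rintro rfl; simp at hx0')
  have hn' : (0 : ℝ) < n := by exact_mod_cast hn
  refine ⟨qf A x0 / n, by positivity, fun x => ?_⟩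
  by_cases hx : x = 0
  · subst hx; simp [qf]
  have hx' : 0 < ‖x‖ := norm_pos_iff.mpr hx
  have h1 : qf A x0 ≤ qf A (‖x‖⁻¹ • x) := hmin (by simp [norm_smul, hx'.ne'])
  rw [qf_smul] at h1
  have h2 : ∑ i, x i ^ 2 ≤ n * ‖x‖ ^ 2 := by
    calc ∑ i, x i ^ 2 ≤ ∑ _i : Fin n, ‖x‖ ^ 2 := Finset.sum_le_sum fun i _ => by
          have := norm_le_pi_norm x i
          rw [← sq_abs]
          exact pow_le_pow_left₀ (abs_nonneg _) this 2
      _ = n * ‖x‖ ^ 2 := by simp
  calc qf A x0 / n * ∑ i, x i ^ 2 ≤ qf A x0 / n * (n * ‖x‖ ^ 2) := by gcongr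
    _ = qf A x0 * ‖x‖ ^ 2 := by field_simp
    _ ≤ (‖x‖⁻¹ ^ 2 * qf A x) * ‖x‖ ^ 2 := by gcongr
    _ = qf A x := by field_simp

theorem summable_gauss_one {k : ℝ} (hk : 0 < k) (γ : ℝ) :
    Summable fun y : ℤ => Real.exp (-k * ((y : ℝ) - γ) ^ 2) := by
  have h1 := (cexp_neg_quadratic_isLittleO_abs_rpow_cocompact (a := -(k : ℂ))
    (by simpa using hk) (2 * k * γ) (-2)).isBigO
  have h2 := summable_of_isBigO (Real.summable_abs_int_rpow one_lt_two)
    (h1.comp_tendsto Int.tendsto_coe_cofinite)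
  have h3 := (h2.norm).mul_left (Real.exp (-k * γ ^ 2))
  refine h3.congr fun y => ?_
  simp only [Function.comp_apply, Complex.norm_exp]
  rw [← Real.exp_add]
  congr 1
  simp [pow_two]
  ring

theorem summable_pi_prod : ∀ (n : ℕ) (f : Fin n → ℤ → ℝ), (∀ i y, 0 ≤ f i y) →
    (∀ i, Summable (f i)) → Summable fun x : Fin n → ℤ => ∏ i, f i (x i)
  | 0, f, _, _ => Summable.of_finite
  | n + 1, f, h0, hs => by
    have ih := summable_pi_prod n (fun i => f i.succ) (fun i => h0 _) (fun i => hs _)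
    have := (hs 0).mul_of_nonneg ih (h0 0) (fun x => Finset.prod_nonneg fun i _ => h0 _ _)
    rw [← (Fin.consEquiv (fun _ : Fin (n + 1) => ℤ)).summable_iff]
    refine this.congr fun p => ?_
    simp [Fin.prod_univ_succ, Fin.consEquiv]

theorem summable_gauss {n : ℕ} (A : Matrix (Fin n) (Fin n) ℝ) (hA : ∀ x, x ≠ 0 → 0 < qf A x)
    {k : ℝ} (hk : 0 < k) (γ : Fin n → ℝ) :
    Summable fun x : Fin n → ℤ => Real.exp (-k * qf A (ic x - γ)) := by
  obtain ⟨ε, hε, h⟩ := coercive A hA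
  have := summable_pi_prod n (fun i y => Real.exp (-(k * ε) * ((y : ℝ) - γ i) ^ 2))
    (fun _ _ => (Real.exp_pos _).le) (fun i => summable_gauss_one (by positivity) _)
  refine this.of_nonneg_of_le (fun _ => (Real.exp_pos _).le) fun x => ?_
  rw [← Real.exp_sum]
  apply Real.exp_le_exp.mpr
  have h1 := h (ic x - γ)
  rw [← Finset.mul_sum]
  simp only [Pi.sub_apply, ic] at h1
  have : k * (ε * ∑ i, ((x i : ℝ) - γ i) ^ 2) ≤ k * qf A (ic x - γ) :=
    mul_le_mul_of_nonneg_left h1 hk.le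
  linarith

/-- One step of the `L D L` decomposition, for a form and its dual. -/
theorem step {n : ℕ} (A C : Matrix (Fin (n + 1)) (Fin (n + 1)) ℝ) (hA : A.IsSymm) (hC : C.IsSymm)
    (hpos : ∀ x, x ≠ 0 → 0 < qf A x) (hAC : A * C = 1) :
    ∃ (a : ℝ) (c : Fin n → ℝ) (S D : Matrix (Fin n) (Fin n) ℝ), 0 < a ∧ S.IsSymm ∧ D.IsSymm ∧
      (∀ x, x ≠ 0 → 0 < qf S x) ∧ S * D = 1 ∧
      (∀ (x0 : ℝ) (x : Fin n → ℝ), qf A (Fin.cons x0 x) = a * (x0 + c ⬝ᵥ x) ^ 2 + qf S x) ∧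
      (∀ (u0 : ℝ) (u : Fin n → ℝ), qf C (Fin.cons u0 u) = u0 ^ 2 / a + qf D (u - u0 • c)) := by
  have ha : 0 < A 0 0 := by
    have := hpos (Pi.single 0 1) (by simp)
    simpa [qf] using this
  set a := A 0 0 with ha_def
  have hAs : ∀ i j, A j i = A i j := fun i j => hA.apply i j
  have hCs : ∀ i j, C j i = C i j := fun i j => hC.apply i j
  let c : Fin n → ℝ := fun i => A 0 i.succ / a
  let S : Matrix (Fin n) (Fin n) ℝ := Matrix.of fun i j => A i.succ j.succ - a * c i * c j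
  let D : Matrix (Fin n) (Fin n) ℝ := Matrix.of fun i j => C i.succ j.succ
  have hc : ∀ i, A 0 i.succ = a * c i := fun i => by simp only [c]; field_simp
  have hc' : ∀ i, A i.succ 0 = a * c i := fun i => by rw [hAs, hc]
  have e : ∀ i j, ∑ k, A i k * C k j = if i = j then 1 else 0 := fun i j => by
    rw [← Matrix.mul_apply, hAC, Matrix.one_apply]
  -- `r = - D c`
  have hr : ∀ j : Fin n, C 0 j.succ = -∑ k, c k * C k.succ j.succ := fun j => by
    have := e 0 j.succ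
    rw [Fin.sum_univ_succ, if_neg (Fin.succ_ne_zero j).symm] at this
    simp only [hc, mul_assoc, ← Finset.mul_sum, ← ha_def] at this
    have h2 : a * (C 0 j.succ + ∑ k, c k * C k.succ j.succ) = 0 := by linarith
    have := (mul_eq_zero.mp h2).resolve_left ha.ne'
    linarith
  have hp : C 0 0 = 1 / a - ∑ k, c k * C 0 k.succ := by
    have := e 0 0
    rw [Fin.sum_univ_succ, if_pos rfl] at this
    simp only [hc, mul_assoc, ← Finset.mul_sum, ← ha_def] at this
    simp only [hCs 0] at this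
    field_simp
    linarith
  have hq1 : ∀ (x0 : ℝ) (x : Fin n → ℝ),
      qf A (Fin.cons x0 x) = a * (x0 + c ⬝ᵥ x) ^ 2 + qf S x := fun x0 x => by
    simp only [qf, dotProduct, mulVec, Fin.sum_univ_succ, Fin.cons_zero, Fin.cons_succ, hc, hc',
      S, Matrix.of_apply, ← ha_def, sub_mul, Finset.sum_sub_distrib, mul_sub, mul_add,
      Finset.sum_add_distrib]
    have e1 : ∑ i, a * c i * x i = a * ∑ i, c i * x i := by
      rw [Finset.mul_sum]; exact Finset.sum_congr rfl fun i _ => by ring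
    have e2 : ∑ i, x i * (a * c i * x0) = a * x0 * ∑ i, c i * x i := by
      rw [Finset.mul_sum]; exact Finset.sum_congr rfl fun i _ => by ring
    have e3 : ∑ i, x i * ∑ j, a * c i * c j * x j = a * (∑ i, c i * x i) ^ 2 := by
      rw [pow_two, Finset.sum_mul, Finset.mul_sum]
      refine Finset.sum_congr rfl fun i _ => ?_
      rw [Finset.mul_sum, Finset.mul_sum, Finset.mul_sum]
      exact Finset.sum_congr rfl fun j _ => by ring
    rw [e1, e2, e3]; ring
  refine ⟨a, c, S, D, ha, ?_, ?_, ?_, ?_, hq1, ?_⟩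
  · ext i j; simp only [S, transpose_apply, Matrix.of_apply, hAs i.succ]; ring
  · ext i j; simp only [D, transpose_apply, Matrix.of_apply, hCs i.succ]
  · intro x hx
    have := hpos (Fin.cons (-(c ⬝ᵥ x)) x) (fun h => hx (by
      funext i; simpa using congrFun h i.succ))
    rw [hq1] at this
    simpa using this
  · ext i j
    have := e i.succ j.succ
    rw [Fin.sum_univ_succ, hc', hr] at this
    simp only [Matrix.mul_apply, S, D, Matrix.of_apply, Matrix.one_apply, sub_mul,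
      Finset.sum_sub_distrib, Fin.succ_inj] at this ⊢
    rw [← this]
    have : ∑ k, a * c i * c k * C k.succ j.succ = a * c i * ∑ k, c k * C k.succ j.succ := by
      rw [Finset.mul_sum]; exact Finset.sum_congr rfl fun k _ => by ring
    rw [this]; ring
  · intro u0 u
    simp only [qf, dotProduct, mulVec, Fin.sum_univ_succ, Fin.cons_zero, Fin.cons_succ, D,
      Matrix.of_apply, Pi.sub_apply, Pi.smul_apply, smul_eq_mul, sub_mul, mul_sub, mul_add,
      Finset.sum_sub_distrib, Finset.sum_add_distrib, hCs 0]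
    have e1 : ∑ i, u i * ∑ j, C i.succ j.succ * (u0 * c j) = -(u0 * ∑ i, C 0 i.succ * u i) := by
      rw [Finset.mul_sum, ← Finset.sum_neg_distrib]
      refine Finset.sum_congr rfl fun i _ => ?_
      rw [hr, Finset.mul_sum, neg_mul, mul_neg, neg_neg, Finset.sum_mul, Finset.mul_sum]
      exact Finset.sum_congr rfl fun j _ => by rw [hCs i.succ]; ring
    have e2 : ∑ i, u0 * c i * ∑ j, C i.succ j.succ * u j = -(u0 * ∑ i, C 0 i.succ * u i) := by
      simp only [Finset.mul_sum]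
      rw [Finset.sum_comm, ← Finset.sum_neg_distrib]
      refine Finset.sum_congr rfl fun i _ => ?_
      rw [hr, neg_mul, mul_neg, neg_neg, Finset.sum_mul, Finset.mul_sum]
      exact Finset.sum_congr rfl fun j _ => by ring
    have e3 : ∑ i, u0 * c i * ∑ j, C i.succ j.succ * (u0 * c j)
        = -(u0 ^ 2 * ∑ i, c i * C 0 i.succ) := by
      rw [Finset.mul_sum, ← Finset.sum_neg_distrib]
      refine Finset.sum_congr rfl fun i _ => ?_
      rw [hr, Finset.mul_sum, mul_neg, mul_neg, neg_neg, Finset.mul_sum, Finset.mul_sum]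
      exact Finset.sum_congr rfl fun j _ => by rw [hCs i.succ]; ring
    have e4 : ∑ i, u i * (C 0 i.succ * u0) = u0 * ∑ i, C 0 i.succ * u i := by
      rw [Finset.mul_sum]; exact Finset.sum_congr rfl fun i _ => by ring
    rw [e1, e2, e3, e4, hp]; ring

theorem pos_dual {n : ℕ} (A C : Matrix (Fin n) (Fin n) ℝ)
    (hpos : ∀ x, x ≠ 0 → 0 < qf A x) (hAC : A * C = 1) : ∀ u, u ≠ 0 → 0 < qf C u := by
  intro u hu
  have h1 : A *ᵥ (C *ᵥ u) = u := by rw [mulVec_mulVec, hAC, one_mulVec]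
  have h2 := hpos (C *ᵥ u) (fun h => hu (by rw [← h1, h, mulVec_zero]))
  unfold qf at h2 ⊢
  rwa [h1, dotProduct_comm] at h2

theorem ic_cons {n : ℕ} (x0 : ℤ) (x : Fin n → ℤ) :
    ic (Fin.cons x0 x : Fin (n + 1) → ℤ) = Fin.cons (x0 : ℝ) (ic x) := by
  funext i; refine Fin.cases ?_ (fun i => ?_) i <;> simp [ic]

theorem norm_term (t : ℂ) (r s : ℝ) :
    ‖cexp (-π * t * r + 2 * π * I * s)‖ = Real.exp (-(π * t.re) * r) := by
  rw [Complex.norm_exp]; congr 1; simp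

theorem norm_term' (t : ℂ) (r : ℝ) :
    ‖cexp (-π / t * r)‖ = Real.exp (-(π * t⁻¹.re) * r) := by
  have := norm_term t⁻¹ r 0
  simpa [div_eq_mul_inv] using this

theorem inv_re_pos {t : ℂ} (ht : 0 < t.re) : 0 < t⁻¹.re := by
  rw [inv_re]
  refine div_pos ht (normSq_pos.mpr ?_)
  rintro rfl; simp at ht

theorem summable_lhs {n : ℕ} (A : Matrix (Fin n) (Fin n) ℝ) (hA : ∀ x, x ≠ 0 → 0 < qf A x)
    {t : ℂ} (ht : 0 < t.re) (γ : Fin n → ℝ) :
    Summable fun x : Fin n → ℤ =>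
      ‖cexp (-π * t * (qf A (ic x) : ℝ) + 2 * π * I * (γ ⬝ᵥ ic x : ℝ))‖ := by
  simp only [norm_term]
  simpa using summable_gauss A hA (k := π * t.re) (mul_pos pi_pos ht) 0

theorem summable_rhs {n : ℕ} (C : Matrix (Fin n) (Fin n) ℝ) (hC : ∀ x, x ≠ 0 → 0 < qf C x)
    {t : ℂ} (ht : 0 < t.re) (γ : Fin n → ℝ) :
    Summable fun y : Fin n → ℤ => ‖cexp (-π / t * (qf C (ic y - γ) : ℝ))‖ := by
  simp only [norm_term']
  exact summable_gauss C hC (mul_pos pi_pos (inv_re_pos ht)) γ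

theorem tsum_cons {n : ℕ} (F : (Fin (n + 1) → ℤ) → ℂ) (hF : Summable F) :
    ∑' x, F x = ∑' x0 : ℤ, ∑' x : Fin n → ℤ, F (Fin.cons x0 x) := by
  let e := Fin.consEquiv (fun _ : Fin (n + 1) => ℤ)
  rw [← e.tsum_eq]
  exact (e.summable_iff.mpr hF).tsum_prod

theorem tsum_cons' {n : ℕ} (F : (Fin (n + 1) → ℤ) → ℂ) (hF : Summable F) :
    ∑' x, F x = ∑' x : Fin n → ℤ, ∑' x0 : ℤ, F (Fin.cons x0 x) := by
  let e := Fin.consEquiv (fun _ : Fin (n + 1) => ℤ)
  rw [tsum_cons F hF]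
  exact (Summable.tsum_comm (f := fun (x0 : ℤ) (x : Fin n → ℤ) => F (Fin.cons x0 x))
    (e.summable_iff.mpr hF)).symm

/-- Poisson summation for Gaussians. -/
theorem poisson : ∀ (n : ℕ) (A C : Matrix (Fin n) (Fin n) ℝ), A.IsSymm → C.IsSymm →
    (∀ x, x ≠ 0 → 0 < qf A x) → A * C = 1 →
    ∃ κ : ℂ, ∀ t : ℂ, 0 < t.re → ∀ γ : Fin n → ℝ,
      ∑' x : Fin n → ℤ, cexp (-π * t * (qf A (ic x) : ℝ) + 2 * π * I * (γ ⬝ᵥ ic x : ℝ)) =
        κ * (1 / t ^ (1 / 2 : ℂ)) ^ n * ∑' y : Fin n → ℤ, cexp (-π / t * (qf C (ic y - γ) : ℝ))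
  | 0, A, C, _, _, _, _ => ⟨1, fun t _ γ => by simp [qf, dotProduct]⟩
  | n + 1, A, C, hA, hC, hpos, hAC => by
    obtain ⟨a, c, S, D, ha, hS, hD, hSpos, hSD, hq1, hq2⟩ := step A C hA hC hpos hAC
    obtain ⟨κ, ih⟩ := poisson n S D hS hD hSpos hSD
    refine ⟨κ * (1 / (a : ℂ) ^ (1 / 2 : ℂ)), fun t ht γ => ?_⟩
    have ht0 : t ≠ 0 := by rintro rfl; simp at ht
    have ha0 : (a : ℂ) ≠ 0 := by exact_mod_cast ha.ne'
    have hta : 0 < ((a : ℂ) * t).re := by simpa using mul_pos ha ht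
    obtain ⟨γ0, γ, rfl⟩ : ∃ (γ0 : ℝ) (γ' : Fin n → ℝ), γ = Fin.cons γ0 γ' :=
      ⟨γ 0, Fin.tail γ, (Fin.cons_self_tail γ).symm⟩
    -- the intermediate double family
    let G : ℤ → (Fin n → ℤ) → ℂ := fun y0 x => cexp (-π / (a * t) * ((y0 : ℝ) - γ0 : ℝ) ^ 2) *
      cexp (-π * t * (qf S (ic x) : ℝ) + 2 * π * I * ((γ + ((y0 : ℝ) - γ0) • c) ⬝ᵥ ic x : ℝ))
    have hG : Summable (Function.uncurry G) := by
      apply Summable.of_norm
      have h1 := summable_gauss_one (k := π * ((a : ℂ) * t)⁻¹.re)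
        (mul_pos pi_pos (inv_re_pos hta)) γ0
      have h2 := summable_gauss S hSpos (k := π * t.re) (mul_pos pi_pos ht) 0
      refine (h1.mul_of_nonneg h2 (fun _ => (Real.exp_pos _).le)
        (fun _ => (Real.exp_pos _).le)).congr fun p => ?_
      simp only [Function.uncurry, G, norm_mul, norm_term, sub_zero]
      rw [← ofReal_pow, norm_term']
    have hL := (summable_lhs A hpos ht (Fin.cons γ0 γ)).of_norm
    have hR := (summable_rhs C (pos_dual A C hpos hAC) ht (Fin.cons γ0 γ)).of_norm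
    rw [tsum_cons' _ hL, tsum_cons _ hR]
    simp only [ic_cons, hq1]
    have h1 : ∀ x : Fin n → ℤ, ∑' x0 : ℤ, cexp (-π * t *
        ((a * ((x0 : ℝ) + c ⬝ᵥ ic x) ^ 2 + qf S (ic x) : ℝ) : ℂ) + 2 * π * I *
          ((Fin.cons γ0 γ : Fin (n + 1) → ℝ) ⬝ᵥ Fin.cons (x0 : ℝ) (ic x) : ℝ)) =
        1 / ((a : ℂ) * t) ^ (1 / 2 : ℂ) * ∑' y0 : ℤ, G y0 x := fun x => by
      have := Complex.tsum_exp_neg_quadratic hta
        (-(a * t * (c ⬝ᵥ ic x : ℝ)) + I * γ0)
      have h2 := congrArg (· * cexp (-π * t * a * (c ⬝ᵥ ic x : ℝ) ^ 2 - π * t * (qf S (ic x) : ℝ)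
        + 2 * π * I * (γ ⬝ᵥ ic x : ℝ))) this
      simp only [mul_assoc _ (tsum _), ← tsum_mul_right, ← Complex.exp_add] at h2
      refine Eq.trans (tsum_congr fun x0 => ?_) (h2.trans (congrArg _ (tsum_congr fun y0 => ?_)))
      · congr 1
        simp only [dotProduct, Fin.sum_univ_succ, Fin.cons_zero, Fin.cons_succ]
        push_cast
        ring
      · simp only [G, ← Complex.exp_add, add_dotProduct, smul_dotProduct, smul_eq_mul]
        congr 1
        push_cast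
        field_simp
        ring_nf
        simp only [I_sq, I_pow_four, I_pow_three]
        ring
    simp only [h1]
    rw [tsum_mul_left, hG.tsum_comm]
    have h3 : ∀ (y0 : ℤ) (y : Fin n → ℤ), (Fin.cons (y0 : ℝ) (ic y) - Fin.cons γ0 γ : Fin (n + 1) → ℝ)
        = Fin.cons ((y0 : ℝ) - γ0) (ic y - γ) := fun y0 y => by
      funext i; refine Fin.cases ?_ (fun i => ?_) i <;> simp
    simp only [G, tsum_mul_left, ih t ht, h3, hq2]
    rw [← tsum_mul_left, ← tsum_mul_left]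
    congr 1
    funext y0
    have h4 : ((a : ℂ) * t) ^ (1 / 2 : ℂ) = (a : ℂ) ^ (1 / 2 : ℂ) * t ^ (1 / 2 : ℂ) := by
      rw [cpow_def_of_ne_zero (mul_ne_zero ha0 ht0), cpow_def_of_ne_zero ha0,
        cpow_def_of_ne_zero ht0, log_ofReal_mul ha ht0, ofReal_log ha.le, add_mul, Complex.exp_add]
    rw [h4, ← mul_assoc, ← mul_assoc, ← tsum_mul_left, ← tsum_mul_left]
    congr 1
    funext y
    rw [sub_add_eq_sub_sub, ofReal_add, mul_add, Complex.exp_add]
    have h5 : -π / (a * t) * (((y0 : ℝ) - γ0 : ℝ) : ℂ) ^ 2 =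
        -π / t * ((((y0 : ℝ) - γ0) ^ 2 / a : ℝ) : ℂ) := by
      push_cast; field_simp
    rw [h5]
    ring

end Cfsg.Agent.Spor.Theta
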